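import Cfsg.Agent.H47.BorelTits
import Cfsg.Agent.H64.Chev.Radical
import Cfsg.Agent.H68.ChevDefectZero
import Cfsg.Agent.H69.ChevUnipotent
import Cfsg.Agent.H35.Constrained
import Cfsg.Agent.S2154
import Cfsg.Agent.S0923
import Cfsg.Agent.S0936
import Cfsg.Agent.S0914
import Cfsg.Agent.S4487
import Cfsg.Agent.H32.BlockCount
import Cfsg.Agent.H26.CharInvolutions
import Cfsg.Agent.H19.Cores

/-!
# The blocks of a Chevalley group in its own characteristic

By the Borel–Tits property every centraliser of a nontrivial `p`-element is constrained with trivial core, so it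
has one block; by the second and third main theorems a character outside the principal block vanishes on
`p`-singular elements, so it is the Steinberg character.
-/

set_option autoImplicit false

namespace Cfsg.Agent.H47.ChevBlocks

open Cfsg Cfsg.Lie Cfsg.Agent.H46
open scoped Matrix MatrixGroups

/-- Constraint with trivial core passes along an isomorphism. -/
theorem constrained_equiv {G X : Type*} [Group G] [Group X] [Finite G] [Finite X] {p : ℕ} [Fact p.Prime]
    (e : G ≃* X) (h : Cfsg.pPrimeCore p G = ⊥ ∧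
      Subgroup.centralizer (Cfsg.pCore p G : Set G) ≤ Cfsg.pCore p G) :
    Cfsg.pPrimeCore p X = ⊥ ∧ Subgroup.centralizer (Cfsg.pCore p X : Set X) ≤ Cfsg.pCore p X := by
  refine ⟨?_, H35.centralizer_pCore_le_equiv e h.2⟩
  have hn := H51.pPrimeCore_normal p X
  have hle : (Cfsg.pPrimeCore p X).map e.symm.toMonoidHom ≤ Cfsg.pPrimeCore p G :=
    H51.le_pPrimeCore (hn.map _ e.symm.surjective)
      ((H51.pPrimeCore_coprime p X).coprime_dvd_left (Subgroup.card_map_dvd _ _))
  rw [h.1, le_bot_iff] at hle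
  exact (Subgroup.map_eq_bot_iff_of_injective _ e.symm.injective).1 hle

/-- A group whose centralisers of nontrivial `p`-elements are constrained with trivial core has at most one
block besides the defect-zero ones: outside the principal block the degree is divisible by the `p`-part. -/
theorem dvd_of_not_principal {Γ : Type*} [Group Γ] [Finite Γ] (p : ℕ) [Fact p.Prime]
    (M : Ideal Cfsg.AlgInt) (hM : Cfsg.IsPModular p M)
    (hloc : ∀ x : Γ, x ≠ 1 → (∃ k : ℕ, orderOf x = p ^ k) →
      Cfsg.pPrimeCore p ↥(Subgroup.centralizer ({x} : Set Γ)) = ⊥ ∧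
      Subgroup.centralizer (Cfsg.pCore p ↥(Subgroup.centralizer ({x} : Set Γ)) :
          Set ↥(Subgroup.centralizer ({x} : Set Γ))) ≤ Cfsg.pCore p ↥(Subgroup.centralizer ({x} : Set Γ)))
    (χ : Cfsg.IrrCharacter Γ) (hχ : χ ∉ Cfsg.principalBlock M Γ) :
    ∃ d : ℕ, (χ : Γ → ℂ) 1 = (d : ℂ) ∧ p ^ (Nat.card Γ).factorization p ∣ d := by
  classical
  haveI := hM.2.1
  haveI : Fintype Γ := Fintype.ofFinite Γ
  have hvan : ∀ x : Γ, x ≠ 1 → (∃ k : ℕ, orderOf x = p ^ k) → (χ : Γ → ℂ) x = 0 := by
    intro x hx1 hxp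
    haveI : Fintype (Subgroup.centralizer ({x} : Set Γ)) := Fintype.ofFinite _
    set C := Subgroup.centralizer ({x} : Set Γ)
    obtain ⟨hc1, hc2⟩ := hloc x hx1 hxp
    have hsame := Cfsg.Agent.S4487.result (G := C) p M hM hc1 hc2
    have hone : Cfsg.principalBlock M C = Set.univ :=
      Set.eq_univ_of_forall fun ψ => hsame (H26.oneIrr C) ψ
    have hb : Cfsg.IsPBlock M (Cfsg.principalBlock M C) := H41.isPBlock_principalBlock
    obtain ⟨B', hB'⟩ := H40.exists_isInducedBlock_centralizer hM hxp hb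
    have hprin : Cfsg.IsInducedBlock M C (Cfsg.principalBlock M C) (Cfsg.principalBlock M Γ) :=
      (Cfsg.Agent.S0936.result p M hM C _ ⟨B', hB'⟩).2 rfl
    have hnot : ¬ Cfsg.IsInducedBlock M C (Cfsg.principalBlock M C) (Cfsg.blockOf M (χ : Γ → ℂ)) := by
      intro h
      have := H32.isInducedBlock_unique hprin h
      exact hχ (this ▸ H41.mem_blockOf_self χ)
    have h0 := Cfsg.Agent.S0923.result p M hM x hxp _ (H41.isPBlock_blockOf χ) χ (H41.mem_blockOf_self χ)
      _ hb hnot (1 : C) (by rw [orderOf_one]; exact (Fact.out : p.Prime).not_dvd_one)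
    have hcls : Cfsg.IsClassFunction C (fun c : C => (χ : Γ → ℂ) (x * (c : Γ))) := by
      intro c d
      refine H26.irr_eq_of_isConj χ (isConj_iff.2 ⟨(d : Γ)⁻¹, ?_⟩)
      have hd' : (d : Γ)⁻¹ * x = x * (d : Γ)⁻¹ :=
        (Commute.inv_left (show Commute (d : Γ) x from Subgroup.mem_centralizer_singleton_iff.1 d.2)).eq
      rw [Subgroup.coe_mul, Subgroup.coe_mul, Subgroup.coe_inv, ← mul_assoc (d : Γ)⁻¹, hd']
      group
    have hexp := congrFun (H26.class_function_expansion _ hcls) (1 : C)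
    simp only [Finset.sum_apply, Pi.smul_apply, smul_eq_mul] at hexp
    rw [hone, Cfsg.blockPart, finsum_mem_univ, finsum_eq_sum_of_fintype] at h0
    have hgoal : (χ : Γ → ℂ) x = (fun c : C => (χ : Γ → ℂ) (x * (c : Γ))) 1 := by simp
    refine hgoal.trans (hexp.trans (Eq.trans ?_ h0))
    refine Finset.sum_congr rfl fun ξ _ => ?_
    congr 2
    exact Subsingleton.elim _ _
  let P : Sylow p Γ := default
  obtain ⟨k, hk⟩ := H26.exists_card_mul_eq_of_vanishing (P : Subgroup Γ) (χ := (χ : Γ → ℂ))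
    (by obtain ⟨n, ρ, -, hρ⟩ := χ.2; exact ⟨n, ρ, hρ⟩) fun g hg hg1 => by
      refine hvan g hg1 ?_
      obtain ⟨j, hj⟩ := P.2 ⟨g, hg⟩
      obtain ⟨m, -, hm⟩ := (Nat.dvd_prime_pow (Fact.out : p.Prime)).1
        (orderOf_dvd_of_pow_eq_one (show g ^ p ^ j = 1 from congrArg Subtype.val hj))
      exact ⟨m, hm⟩
  refine ⟨Nat.card P * k, ?_, ?_⟩
  · rw [hk, Nat.cast_mul]
  · rw [P.card_eq_multiplicity]; exact dvd_mul_right _ _

/-- A group with exactly one character of full degree outside the principal block has two blocks. -/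
theorem card_blocks_two {Γ : Type*} [Group Γ] [Finite Γ] (p : ℕ) [Fact p.Prime]
    (M : Ideal Cfsg.AlgInt) (hM : Cfsg.IsPModular p M) (st : Cfsg.IrrCharacter Γ) (d : ℕ)
    (hst : (st : Γ → ℂ) 1 = (d : ℂ)) (hd : 2 ≤ d) (hdp : d = p ^ (Nat.card Γ).factorization p)
    (key : ∀ χ : Cfsg.IrrCharacter Γ, χ ∉ Cfsg.principalBlock M Γ → χ = st) :
    Nat.card {B : Set (Cfsg.IrrCharacter Γ) // Cfsg.IsPBlock M B} = 2 := by
  classical
  haveI := hM.2.1
  have hne1 : st ≠ H26.oneIrr _ := fun h => by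
    have h1 := congrArg (fun z : Cfsg.IrrCharacter Γ => (z : Γ → ℂ) 1) h
    simp only [hst, H26.oneIrr_val] at h1
    have h2 : d = 1 := by exact_mod_cast h1
    omega
  have hsing : Cfsg.blockOf M (st : Γ → ℂ) = {st} := by
    refine (Cfsg.Agent.S0914.result p M hM st).1 ?_
    rw [H26.charDegree_eq hst, hdp]
    exact Nat.not_dvd_ordCompl (Fact.out : p.Prime) Nat.card_pos.ne'
  have hdiff : Cfsg.blockOf M (st : Γ → ℂ) ≠ Cfsg.principalBlock M Γ := by
    intro h
    have : H26.oneIrr Γ ∈ Cfsg.principalBlock M Γ := by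
      rw [H41.principalBlock_eq]; exact H41.mem_blockOf_self (H26.oneIrr Γ)
    rw [← h, hsing] at this
    exact hne1 (Set.mem_singleton_iff.1 this).symm
  rw [Nat.card_eq_two_iff]
  refine ⟨⟨_, H41.isPBlock_principalBlock⟩, ⟨_, H41.isPBlock_blockOf st⟩,
    fun h => hdiff (congrArg Subtype.val h).symm, Set.eq_univ_of_forall fun B => ?_⟩
  obtain ⟨B, χ, rfl⟩ := B
  by_cases hχ : χ ∈ Cfsg.principalBlock M Γ
  · exact Or.inl (Subtype.ext (H41.eq_blockOf_of_mem H41.isPBlock_principalBlock hχ).symm)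
  · obtain rfl := key χ hχ
    exact Or.inr (Set.mem_singleton_iff.2 rfl)

variable {F : Type*} [Field F] [Fintype F] (p : ℕ) [Fact p.Prime] [CharP F p] {D : ChevalleyDatum} (G : Good D)

include G

/-- A proper parabolic subgroup has self-centralising `p`-core. -/
theorem parabolic_constrained (hl : H64.Radical.chkLink D G.tab = true) {J : Set ℕ} {i : Fin D.rank}
    (hi : (i : ℕ) ∉ J) :
    Subgroup.centralizer (Cfsg.pCore p ↥(D.parabolicSubgroup F J) : Set ↥(D.parabolicSubgroup F J)) ≤
      Cfsg.pCore p ↥(D.parabolicSubgroup F J) := by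
  set P := D.parabolicSubgroup F J
  set R := (D.unipotentRadical F J).subgroupOf P
  haveI hRn : R.Normal := Subgroup.normal_subgroupOf_of_le_normalizer (H64.Radical.parabolic_le_normalizer G J)
  have hU : IsPGroup p ((D.posUnipotent F).subgroupOf P) :=
    (H64.Radical.isPGroup_posUnipotent G p).comap_of_injective _ Subtype.val_injective
  have hRp : IsPGroup p R := hU.to_le fun x hx => H64.Radical.radical_le G J hx
  have hRle : R ≤ Cfsg.pCore p P := H51.le_pCore hRn hRp
  refine (Subgroup.centralizer_le hRle).trans (H51.le_pCore inferInstance (hU.to_le fun x hx => ?_))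
  refine H64.Radical.mem_posUnipotent_of_centralizes G J hl hi (H64.Radical.parabolic_le_group G J x.2)
    fun w hw => ?_
  have hwP : w ∈ P := Subgroup.mem_sup_left (Subgroup.mem_sup_left (H64.Radical.radical_le G J hw))
  exact (congrArg Subtype.val (Subgroup.mem_centralizer_iff.1 hx ⟨w, hwP⟩ hw)).symm

/-- The centraliser of a nontrivial `p`-element is constrained with trivial core. -/
theorem centralizer_constrained (hl : H64.Radical.chkLink D G.tab = true) (x : ↥(D.group F)) (hx1 : x ≠ 1)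
    (hx : ∃ k : ℕ, orderOf x = p ^ k) :
    Cfsg.pPrimeCore p ↥(Subgroup.centralizer ({x} : Set ↥(D.group F))) = ⊥ ∧
      Subgroup.centralizer (Cfsg.pCore p ↥(Subgroup.centralizer ({x} : Set ↥(D.group F))) :
          Set ↥(Subgroup.centralizer ({x} : Set ↥(D.group F)))) ≤
        Cfsg.pCore p ↥(Subgroup.centralizer ({x} : Set ↥(D.group F))) := by
  obtain ⟨k, hk⟩ := hx
  have hx' : (x : GL D.Idx F) ≠ 1 := fun h => hx1 (Subtype.ext h)
  set X := Subgroup.zpowers (x : GL D.Idx F) with hX
  have hXG : X ≤ D.group F := Subgroup.zpowers_le.2 x.2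
  have hXp : IsPGroup p X := IsPGroup.of_card (n := k) (by rw [hX, Nat.card_zpowers, Subgroup.orderOf_coe, hk])
  have hXne : X ≠ ⊥ := fun h => hx' (Subgroup.zpowers_eq_bot.1 h)
  obtain ⟨g₀, hg₀, hX0⟩ := S2154.exists_conj_le p G X hXG hXp
  obtain ⟨g, hg, J, ⟨i, hi, hiJ⟩, hN, hU⟩ := BorelTits.borel_tits G X hXne hg₀ hX0
  set P := D.parabolicSubgroup F J with hP
  have hxm : g⁻¹ * (x : GL D.Idx F) * g ∈ D.unipotentRadical F J := by
    obtain ⟨y, hy, e⟩ := hU (Subgroup.mem_zpowers (x : GL D.Idx F))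
    rw [← e]; simpa [mul_assoc] using hy
  have hxP : g⁻¹ * (x : GL D.Idx F) * g ∈ P :=
    Subgroup.mem_sup_left (Subgroup.mem_sup_left (H64.Radical.radical_le G J hxm))
  let y : P := ⟨g⁻¹ * (x : GL D.Idx F) * g, hxP⟩
  have hyp : IsPGroup p (Subgroup.zpowers y) := by
    refine IsPGroup.of_card (n := k) ?_
    rw [Nat.card_zpowers, ← Subgroup.orderOf_coe, show ((y : P) : GL D.Idx F) = MulAut.conj g⁻¹ (x : GL D.Idx F) by
      simp [y, MulAut.conj_apply], MulEquiv.orderOf_eq, Subgroup.orderOf_coe, hk]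
  have hspec := H35.local_spec (parabolic_constrained p G hl (i := ⟨i, hi⟩) hiJ) hyp
    (K := Subgroup.centralizer (Subgroup.zpowers y : Set P)) le_rfl
    (Subgroup.centralizer_le_normalizer _) (Or.inr le_rfl)
  -- the centraliser is the centraliser inside the parabolic subgroup
  have hcP : ∀ c : Subgroup.centralizer ({x} : Set ↥(D.group F)),
      g⁻¹ * ((c : ↥(D.group F)) : GL D.Idx F) * g ∈ P := by
    intro c
    have hc := congrArg Subtype.val (Subgroup.mem_centralizer_singleton_iff.1 c.2)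
    simp only [Subgroup.coe_mul] at hc
    have hcn : ((c : ↥(D.group F)) : GL D.Idx F) ∈ Subgroup.normalizer (X : Set (GL D.Idx F)) := by
      refine Subgroup.centralizer_le_normalizer _ (Subgroup.mem_centralizer_iff.2 fun z hz => ?_)
      obtain ⟨m, rfl⟩ := Subgroup.mem_zpowers_iff.1 hz
      exact ((Commute.zpow_right hc m)).eq.symm
    obtain ⟨q, hq, e⟩ := hN (Subgroup.mem_inf.2 ⟨hcn, (c : ↥(D.group F)).2⟩)
    rw [← e]; simpa [mul_assoc] using hq
  let f : Subgroup.centralizer ({x} : Set ↥(D.group F)) →* Subgroup.centralizer (Subgroup.zpowers y : Set P) :=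
    { toFun := fun c => ⟨⟨g⁻¹ * ((c : ↥(D.group F)) : GL D.Idx F) * g, hcP c⟩, by
        refine Subgroup.mem_centralizer_iff.2 fun z hz => ?_
        obtain ⟨m, rfl⟩ := Subgroup.mem_zpowers_iff.1 hz
        refine ((Commute.zpow_right ?_ m)).eq.symm
        have hc := congrArg Subtype.val (Subgroup.mem_centralizer_singleton_iff.1 c.2)
        simp only [Subgroup.coe_mul] at hc
        refine Subtype.ext ?_
        show g⁻¹ * _ * g * (g⁻¹ * _ * g) = g⁻¹ * _ * g * (g⁻¹ * _ * g)
        simp only [mul_assoc, mul_inv_cancel_left]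
        rw [← mul_assoc _ _ g, hc, mul_assoc]⟩
      map_one' := by apply Subtype.ext; apply Subtype.ext; simp
      map_mul' := fun a b => by apply Subtype.ext; apply Subtype.ext; simp [mul_assoc] }
  have hf : Function.Bijective f := by
    constructor
    · intro a b h
      have h' : g⁻¹ * ((a : ↥(D.group F)) : GL D.Idx F) * g = g⁻¹ * ((b : ↥(D.group F)) : GL D.Idx F) * g :=
        congrArg (fun z : Subgroup.centralizer (Subgroup.zpowers y : Set P) => ((z : P) : GL D.Idx F)) h
      exact Subtype.ext (Subtype.ext (mul_left_cancel (mul_right_cancel h')))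
    · intro z
      have hzG : g * ((z : P) : GL D.Idx F) * g⁻¹ ∈ D.group F :=
        mul_mem (mul_mem hg (H64.Radical.parabolic_le_group G J (z : P).2)) (inv_mem hg)
      refine ⟨⟨⟨_, hzG⟩, Subgroup.mem_centralizer_singleton_iff.2 (Subtype.ext ?_)⟩,
        Subtype.ext (Subtype.ext ?_)⟩
      · have hz := congrArg Subtype.val (Subgroup.mem_centralizer_iff.1 z.2 y (Subgroup.mem_zpowers y))
        change g⁻¹ * (x : GL D.Idx F) * g * ((z : P) : GL D.Idx F) =
          ((z : P) : GL D.Idx F) * (g⁻¹ * (x : GL D.Idx F) * g) at hz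
        show g * ((z : P) : GL D.Idx F) * g⁻¹ * (x : GL D.Idx F) = (x : GL D.Idx F) * (g * ((z : P) : GL D.Idx F) * g⁻¹)
        calc g * ((z : P) : GL D.Idx F) * g⁻¹ * (x : GL D.Idx F)
            = g * (((z : P) : GL D.Idx F) * (g⁻¹ * (x : GL D.Idx F) * g)) * g⁻¹ := by group
          _ = (x : GL D.Idx F) * (g * ((z : P) : GL D.Idx F) * g⁻¹) := by rw [← hz]; group
      · show g⁻¹ * (g * ((z : P) : GL D.Idx F) * g⁻¹) * g = _
        group
  exact constrained_equiv (MulEquiv.ofBijective f hf).symm hspec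

/-- A Chevalley group has two blocks in its own characteristic. -/
theorem card_blocks (hl : H64.Radical.chkLink D G.tab = true) (hn : 0 < D.nroots / 2)
    (M : Ideal Cfsg.AlgInt) (hM : Cfsg.IsPModular p M) :
    Nat.card {B : Set (Cfsg.IrrCharacter ↥(D.group F)) // Cfsg.IsPBlock M B} = 2 := by
  classical
  haveI : Fintype ↥(D.group F) := Fintype.ofFinite _
  have hSt := H68.ChevSt.steinberg_eq_bnSt G (G.bnPair (F := F)) rfl rfl
  obtain ⟨P, hP⟩ := H69.Chev.sylow_posUnipotent G (F := F) p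
  have hcard : Nat.card (P : Subgroup ↥(D.group F)) = Fintype.card F ^ (D.nroots / 2) := by
    rw [hP, Nat.card_congr (Subgroup.subgroupOfEquivOfLe G.posUnipotent_le_group).toEquiv,
      H69.Chev.card_posUnipotent G]
  refine card_blocks_two p M hM ⟨D.steinbergCharacter F, hSt ▸ H68.BNW.isIrrCharacter_bnSt⟩
    (Fintype.card F ^ (D.nroots / 2)) ?_ (le_trans Fintype.one_lt_card (Nat.le_self_pow hn.ne' _))
    (by rw [← hcard, P.card_eq_multiplicity]) fun χ hχ => ?_
  · show D.steinbergCharacter F 1 = _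
    rw [Nat.cast_pow]
    exact H69.Chev.steinberg_one G
  · exact Subtype.ext (H68.ChevDZ.eq_steinberg (G := G) (F := F) p χ.2
      (dvd_of_not_principal p M hM (fun x hx hxp => centralizer_constrained p G hl x hx hxp) χ hχ))

end Cfsg.Agent.H47.ChevBlocks
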