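import Cfsg.Agent.H46.BNPair
import Mathlib.RingTheory.IntegralDomain

/-!
# The operators `T_n = ∑_{u ∈ U_n} u n` on the `U`-fixed vectors of a module in the defining characteristic

`U_n` is the product of the root groups of the positive roots that `n⁻¹` makes negative.
-/

set_option autoImplicit false

namespace Cfsg.Agent.H47.Hecke

open Cfsg.Lie Cfsg.Agent.H46
open scoped Matrix MatrixGroups

variable {D : ChevalleyDatum} (G : Good D) {F : Type*} [Field F]

/-- The monomial subgroup inside the group. -/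
def mono (D : ChevalleyDatum) (F : Type*) [Field F] : Subgroup ↥(D.group F) :=
  (D.monomialSubgroup F).subgroupOf (D.group F)

/-- `U` inside the group. -/
def upper (D : ChevalleyDatum) (F : Type*) [Field F] : Subgroup ↥(D.group F) :=
  (D.posUnipotent F).subgroupOf (D.group F)

/-- `V` inside the group. -/
def lower (D : ChevalleyDatum) (F : Type*) [Field F] : Subgroup ↥(D.group F) :=
  (D.negUnipotent F).subgroupOf (D.group F)

/-- A product of positive root groups inside the group. -/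
def pS (S : Set ℕ) : Subgroup ↥(D.group F) := (G.posSub (F := F) S).subgroupOf (D.group F)

/-- A root element inside the group. -/
noncomputable def rt (r : ℕ) (t : F) : ↥(D.group F) := ⟨G.xg r t, G.xg_mem_group r t⟩

/-- The representative of a fundamental reflection. -/
noncomputable def ns (i : Fin D.rank) : ↥(D.group F) := ⟨G.ng (D.simple i) 1, G.ng_mem_group _ _⟩

/-- The torus inside the group. -/
noncomputable def tor : (Fin D.rank → Fˣ) →* ↥(D.group F) :=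
  (G.torus (F := F)).codRestrict (D.group F) fun z =>
    G.diagonal_le_group (G.mem_diagonal.2 ⟨z, rfl⟩)

/-- The permutation of the roots. -/
noncomputable def pm (n : ↥(D.group F)) : Equiv.Perm (Fin D.nroots) := G.perm (n : GL D.Idx F)

/-- The positive roots made negative by `n⁻¹`. -/
def lSet (n : ↥(D.group F)) : Set ℕ := G.invSet ((n : GL D.Idx F)⁻¹)

include G

theorem ns_mem (i : Fin D.rank) : ns G (F := F) i ∈ mono D F := G.ng_mem_monomial (G.simple_lt i.2)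

theorem tor_mem (z : Fin D.rank → Fˣ) : tor G z ∈ mono D F :=
  Subgroup.mem_sup_left (G.mem_diagonal.2 ⟨z, rfl⟩)

theorem coe_tor (z : Fin D.rank → Fˣ) : ((tor G z : ↥(D.group F)) : GL D.Idx F) = G.torus z := rfl

theorem pm_mul {a b : ↥(D.group F)} (ha : a ∈ mono D F) (hb : b ∈ mono D F) :
    pm G (a * b) = pm G a * pm G b := G.perm_mul ha hb

theorem pm_inv {a : ↥(D.group F)} (ha : a ∈ mono D F) : pm G a⁻¹ = (pm G a)⁻¹ := G.perm_inv ha

theorem pm_ns (i : Fin D.rank) : pm G (ns G (F := F) i) = G.sPerm i := G.perm_ng_simple i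

theorem pm_tor (z : Fin D.rank → Fˣ) : pm G (tor G z) = 1 := G.perm_diagonal (G.mem_diagonal.2 ⟨z, rfl⟩)

theorem exists_tor {n : ↥(D.group F)} (hn : n ∈ mono D F) (h : pm G n = 1) : ∃ z, n = tor G z := by
  obtain ⟨z, hz⟩ := G.mem_diagonal.1 ((G.perm_eq_one_iff hn).1 h)
  exact ⟨z, Subtype.ext hz⟩

theorem mem_lSet {n : ↥(D.group F)} (hn : n ∈ mono D F) {r : Fin D.nroots} :
    (r : ℕ) ∈ lSet G n ↔ D.IsPosRoot r ∧ D.IsNegRoot ((pm G n)⁻¹ r) := by
  rw [lSet, G.mem_invSet, G.perm_inv (show (n : GL D.Idx F) ∈ D.monomialSubgroup F from hn)]; rfl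

theorem lSet_lt {n : ↥(D.group F)} {r : ℕ} (h : r ∈ lSet G n) : r < D.nroots := h.choose

theorem closed_lSet {n : ↥(D.group F)} (hn : n ∈ mono D F) : G.PosClosed (lSet G n) :=
  G.posClosed_invSet (inv_mem hn)

theorem closed_compl {n : ↥(D.group F)} (hn : n ∈ mono D F) : G.PosClosed (lSet G n)ᶜ :=
  G.posClosed_invSet_compl (inv_mem hn)

theorem rt_mem {S : Set ℕ} {r : ℕ} (hr : D.IsPosRoot r) (h : r ∈ S) (t : F) : rt G r t ∈ pS G S :=
  G.xg_mem_posSub hr h t

theorem pS_le (S : Set ℕ) : pS G S ≤ upper D F := fun _ hx => G.posSub_le_posUnipotent S hx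

theorem pS_disjoint {A B : Set ℕ} (hA : G.PosClosed A) (hB : G.PosClosed B)
    (hAB : ∀ r, D.IsPosRoot r → r ∈ A → r ∈ B → False) {x : ↥(D.group F)} (h1 : x ∈ pS G A)
    (h2 : x ∈ pS G B) : x = 1 := by
  have h : (x : GL D.Idx F) ∈ G.posSub (F := F) (A ∩ B) := by
    rw [← G.posSub_inf hA hB]; exact ⟨h1, h2⟩
  have h3 : G.posSub (F := F) (A ∩ B) ≤ ⊥ := by
    refine (Subgroup.closure_le _).2 ?_
    rintro g ⟨r, t, ⟨hr, hrA, hrB⟩, -⟩
    exact (hAB r hr hrA hrB).elim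
  exact Subtype.ext (h3 h)

theorem pS_inter {A B : Set ℕ} (hA : G.PosClosed A) (hB : G.PosClosed B) {x : ↥(D.group F)}
    (h1 : x ∈ pS G A) (h2 : x ∈ pS G B) : x ∈ pS G (A ∩ B) := by
  show (x : GL D.Idx F) ∈ G.posSub (F := F) (A ∩ B)
  rw [← G.posSub_inf hA hB]; exact ⟨h1, h2⟩

theorem exists_split (A : Set ℕ) {u : ↥(D.group F)} (hu : u ∈ upper D F) :
    ∃ a ∈ pS G A, ∃ b ∈ pS G Aᶜ, u = a * b := by
  obtain ⟨a, ha, b, hb, e⟩ := G.factor A hu
  exact ⟨⟨a, G.posUnipotent_le_group (G.posSub_le_posUnipotent _ ha)⟩, ha,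
    ⟨b, G.posUnipotent_le_group (G.posSub_le_posUnipotent _ hb)⟩, hb, Subtype.ext e⟩

theorem conj_pS {n : ↥(D.group F)} (hn : n ∈ mono D F) {A B : Set ℕ}
    (h : ∀ r : Fin D.nroots, D.IsPosRoot r → (r : ℕ) ∈ A →
      D.IsPosRoot (pm G n r) ∧ ((pm G n r : Fin D.nroots) : ℕ) ∈ B)
    {x : ↥(D.group F)} (hx : x ∈ pS G A) : n * x * n⁻¹ ∈ pS G B := by
  have hle : G.posSub (F := F) A ≤
      (G.posSub (F := F) B).comap (MulAut.conj (n : GL D.Idx F)).toMonoidHom := by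
    refine (Subgroup.closure_le _).2 ?_
    rintro g ⟨r, t, ⟨hr, hrA⟩, rfl⟩
    obtain ⟨c, hc⟩ := G.conj_xg_eq hn ⟨r, hr.1⟩
    simp only [SetLike.mem_coe, Subgroup.mem_comap, MulEquiv.coe_toMonoidHom, MulAut.conj_apply]
    rw [show (n : GL D.Idx F) * G.xg r t * (n : GL D.Idx F)⁻¹ = _ from hc t]
    obtain ⟨h1, h2⟩ := h ⟨r, hr.1⟩ hr hrA
    exact G.xg_mem_posSub h1 h2 _
  exact hle hx

theorem conj_compl {n x : ↥(D.group F)} (hn : n ∈ mono D F) (hx : x ∈ pS G (lSet G n)ᶜ) :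
    n⁻¹ * x * n ∈ upper D F := by
  have := G.conj_posSub_compl (inv_mem hn) hx
  rwa [inv_inv] at this

theorem conj_lower {n x : ↥(D.group F)} (hn : n ∈ mono D F) (hx : x ∈ pS G (lSet G n)) :
    n⁻¹ * x * n ∈ lower D F := by
  have := G.conj_posSub_invSet (inv_mem hn) hx
  rwa [inv_inv] at this

theorem tor_normalizes (z : Fin D.rank → Fˣ) {A : Set ℕ} {x : ↥(D.group F)} (hx : x ∈ pS G A) :
    tor G z * x * (tor G z)⁻¹ ∈ pS G A :=
  conj_pS G (tor_mem G z) (fun r hr hrA => by rw [pm_tor, Equiv.Perm.one_apply]; exact ⟨hr, hrA⟩) hx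

theorem torus_conj {n : GL D.Idx F} (hn : n ∈ D.monomialSubgroup F) {z z' : Fin D.rank → Fˣ}
    (h : ∀ s : Fin D.nroots, G.torusVal z' s = G.torusVal z (G.perm n s : Fin D.nroots)) :
    n⁻¹ * G.torus z * n = G.torus z' := by
  obtain ⟨w, hw⟩ := G.mem_diagonal.1
    (G.diagonal_normalized (inv_mem hn) (G.mem_diagonal.2 ⟨z, rfl⟩ : G.torus z ∈ D.diagonalSubgroup F))
  rw [inv_inv] at hw
  rw [hw, ← mul_inv_eq_one, ← map_inv, ← map_mul, G.torus_eq_one_iff]
  intro s hs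
  obtain ⟨c, hc⟩ := G.conj_xg_eq hn ⟨s, hs⟩
  have e1 : (n⁻¹ * G.torus z * n) * G.xg s 1 * (n⁻¹ * G.torus z * n)⁻¹ =
      G.xg s ((G.torusVal w s : F) * 1) := by rw [hw, G.torus_conj_xg w hs]
  have e2 : (n⁻¹ * G.torus z * n) * G.xg s 1 * (n⁻¹ * G.torus z * n)⁻¹ =
      G.xg s (G.torusVal z (G.perm n ⟨s, hs⟩ : Fin D.nroots) : F) := by
    set a := (G.torusVal z (G.perm n ⟨s, hs⟩ : Fin D.nroots) : F) with ha
    calc _ = n⁻¹ * (G.torus z * (n * G.xg s 1 * n⁻¹) * (G.torus z)⁻¹) * n := by group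
      _ = n⁻¹ * G.xg (G.perm n ⟨s, hs⟩ : Fin D.nroots) ((c : F) * a) * n := by
          rw [show n * G.xg s 1 * n⁻¹ = _ from hc 1, G.torus_conj_xg z (Fin.isLt _), mul_one, mul_comm (c : F), ha]
      _ = G.xg s a := by
          rw [← show n * G.xg s a * n⁻¹ = _ from hc a]; group
  have e3 := G.xg_injective hs (e1.symm.trans e2)
  rw [mul_one] at e3
  rw [G.torusVal_mul, Units.ext e3, ← h ⟨s, hs⟩, ← G.torusVal_mul, mul_inv_cancel, G.torusVal_one]

/-- The conjugate of a torus element by an element of `N`. -/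
theorem tor_conj {n : ↥(D.group F)} (hn : n ∈ mono D F) {z z' : Fin D.rank → Fˣ}
    (h : ∀ s : Fin D.nroots, G.torusVal z' s = G.torusVal z (pm G n s : Fin D.nroots)) :
    n⁻¹ * tor G z * n = tor G z' :=
  Subtype.ext (torus_conj G hn h)

theorem torusVal_mulSingle (i : Fin D.rank) (c : Fˣ) (s : ℕ) :
    G.torusVal (Pi.mulSingle i c) s = c ^ G.cartForm i (G.rc s) := by
  rw [Good.torusVal, Finset.prod_eq_single i]
  · rw [Pi.mulSingle_eq_same]
  · intro j _ hj; rw [Pi.mulSingle_eq_of_ne hj, one_zpow]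
  · simp

/-- A fundamental reflection acts on the torus. -/
theorem tor_conj_ns (i : Fin D.rank) (z : Fin D.rank → Fˣ) :
    (ns G (F := F) i)⁻¹ * tor G z * ns G i =
      tor G (z * Pi.mulSingle i (G.torusVal z (D.simple i))⁻¹) := by
  refine tor_conj G (ns_mem G i) fun s => ?_
  rw [pm_ns, G.sPerm_apply, G.torusVal_mul, torusVal_mulSingle,
    G.torusVal_add (r := (s : ℕ)) (s := D.simple i) (u := D.reflectRoot i s) z 1 (-(D.cartan i s))
      (by rw [G.rc_reflect i.2 s.2, G.rc_simple i.2, one_smul, neg_smul, ← sub_eq_add_neg]),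
    zpow_one, G.cartan_eq s.2 i.2, zpow_neg, inv_zpow]

theorem tor_conj_ns_single (i : Fin D.rank) (c : Fˣ) :
    (ns G (F := F) i)⁻¹ * tor G (Pi.mulSingle i c) * ns G i = tor G (Pi.mulSingle i c⁻¹) := by
  rw [tor_conj_ns, ← Pi.mulSingle_mul, torusVal_mulSingle, G.rc_simple i.2, G.cartForm_single, G.cm_self i.2]
  congr 2
  group

theorem hg_eq (i : Fin D.rank) (c : Fˣ) :
    (⟨G.hg (D.simple i) (c : F), G.hg_mem_group _ _⟩ : ↥(D.group F)) = tor G (Pi.mulSingle i c) :=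
  Subtype.ext (G.torus_mulSingle i c).symm

theorem ns_mul_ns (i : Fin D.rank) :
    ns G (F := F) i * ns G i = tor G (Pi.mulSingle i (-1 : Fˣ)⁻¹) := by
  apply Subtype.ext
  show G.ng (D.simple i) (1 : F) * G.ng (D.simple i) 1 = G.torus (Pi.mulSingle i (-1 : Fˣ)⁻¹)
  rw [Pi.mulSingle_inv, map_inv, G.torus_mulSingle, Units.val_neg, Units.val_one, Good.hg, mul_inv_rev, G.ng_inv,
    _root_.neg_neg]

theorem rt_neg_eq (i : Fin D.rank) (a : Fˣ) :
    rt G (D.neg (D.simple i)) ((a : F)⁻¹) =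
      rt G (D.simple i) (a : F) * tor G (Pi.mulSingle i (-a)) * ns G i * rt G (D.simple i) (a : F) := by
  apply Subtype.ext
  show G.xg (D.neg (D.simple i)) ((a : F)⁻¹) =
    G.xg (D.simple i) (a : F) * G.torus (Pi.mulSingle i (-a)) * G.ng (D.simple i) 1 * G.xg (D.simple i) (a : F)
  rw [G.torus_mulSingle, mul_assoc (G.xg (D.simple i) (a : F)), ← G.ng_eq_hg_mul, Units.val_neg, Good.ng,
    inv_neg, _root_.neg_neg, ← mul_assoc, ← mul_assoc, G.xg_add, mul_assoc, G.xg_add]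
  simp [G.xg_zero]

theorem ns_mul_rt (i : Fin D.rank) (t : F) :
    ns G i * rt G (D.simple i) t = rt G (D.neg (D.simple i)) (-t) * ns G i := by
  apply Subtype.ext
  show G.ng (D.simple i) 1 * G.xg (D.simple i) t = G.xg (D.neg (D.simple i)) (-t) * G.ng (D.simple i) 1
  rw [G.ng_mul_xg (G.simple_lt i.2) one_ne_zero]
  simp

theorem lSet_ns (i : Fin D.rank) (r : Fin D.nroots) : (r : ℕ) ∈ lSet G (ns G (F := F) i) ↔ r = G.simpleF i := by
  rw [mem_lSet G (ns_mem G i), pm_ns, show (G.sPerm i)⁻¹ = G.sPerm i from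
    inv_eq_of_mul_eq_one_left (G.sPerm_mul_self i)]
  constructor
  · rintro ⟨h1, h2⟩
    by_contra hne
    exact G.not_isNegRoot (G.isPosRoot_reflect i.2 h1 fun e => hne (Fin.ext e)) h2
  · rintro rfl
    exact ⟨G.isPosRoot_simple i.2, by rw [G.sPerm_simple]; exact G.isNegRoot_neg (G.isPosRoot_simple i.2)⟩

/-! ### The operators -/

variable [Fintype F]

/-- The elements of `U_n`. -/
noncomputable def tSet (n : ↥(D.group F)) : Finset ↥(D.group F) :=
  (Set.toFinite ((pS G (F := F) (lSet G n) : Subgroup ↥(D.group F)) : Set ↥(D.group F))).toFinset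

theorem mem_tSet {n x : ↥(D.group F)} : x ∈ tSet G n ↔ x ∈ pS G (lSet G n) := Set.Finite.mem_toFinset _

variable {k : Type*} [Field k] {V : Type*} [AddCommGroup V] [Module k V]
  (ρ : ↥(D.group F) →* Module.End k V)

/-- `T_n`. -/
noncomputable def opT (n : ↥(D.group F)) (v : V) : V := ∑ x ∈ tSet G n, ρ (x * n) v

omit G in
/-- Fixed by `U`. -/
def IsFix (v : V) : Prop := ∀ u ∈ upper D F, ρ u v = v

/-- An eigenvector of the torus. -/
def HasChar (v : V) (χ : (Fin D.rank → Fˣ) →* kˣ) : Prop := ∀ z, ρ (tor G z) v = (χ z : k) • v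

theorem opT_smul (n : ↥(D.group F)) (c : k) (v : V) : opT G ρ n (c • v) = c • opT G ρ n v := by
  simp [opT, Finset.smul_sum]

theorem opT_sum {ι : Type*} (s : Finset ι) (f : ι → V) (n : ↥(D.group F)) :
    opT G ρ n (∑ j ∈ s, f j) = ∑ j ∈ s, opT G ρ n (f j) := by
  simp only [opT, map_sum]; exact Finset.sum_comm

theorem opT_zero (n : ↥(D.group F)) : opT G ρ n 0 = 0 := by simp [opT]

theorem opT_map {W : Type*} [AddCommGroup W] [Module k W] (σ : ↥(D.group F) →* Module.End k W) (θ : V →ₗ[k] W)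
    (hθ : ∀ g v, θ (ρ g v) = σ g (θ v)) (n : ↥(D.group F)) (v : V) :
    θ (opT G ρ n v) = opT G σ n (θ v) := by
  simp [opT, hθ]

theorem isFix_opT {n : ↥(D.group F)} (hn : n ∈ mono D F) {v : V} (hv : IsFix ρ v) :
    IsFix ρ (opT G ρ n v) := by
  intro u hu
  set A := lSet G n
  have key : ∀ x ∈ tSet G n, ∃ a ∈ pS G A, ∃ b ∈ pS G Aᶜ, u * x = a * b := fun x hx =>
    exists_split G A (mul_mem hu (pS_le G _ ((mem_tSet G).1 hx)))
  choose a ha b hb e using key
  rw [opT, map_sum]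
  refine Finset.sum_bij (fun x hx => a x hx) (fun x hx => (mem_tSet G).2 (ha x hx)) ?_ ?_ ?_
  · intro x hx y hy h
    have h1 : x⁻¹ * y = (b x hx)⁻¹ * b y hy := by
      calc x⁻¹ * y = (u * x)⁻¹ * (u * y) := by group
        _ = (b x hx)⁻¹ * b y hy := by rw [e x hx, e y hy, h]; group
    have := pS_disjoint G (closed_lSet G hn) (closed_compl G hn) (fun r _ h h' => h' h)
      (mul_mem (inv_mem ((mem_tSet G).1 hx)) ((mem_tSet G).1 hy))
      (h1 ▸ mul_mem (inv_mem (hb x hx)) (hb y hy))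
    exact inv_mul_eq_one.1 this
  · intro y hy
    obtain ⟨x, hx, c, hc, hxc⟩ := exists_split G A (mul_mem (inv_mem hu) (pS_le G _ ((mem_tSet G).1 hy)))
    have hxT := (mem_tSet G).2 hx
    refine ⟨x, hxT, ?_⟩
    have h1 : y⁻¹ * a x hxT = c⁻¹ * (b x hxT)⁻¹ := by
      calc y⁻¹ * a x hxT = y⁻¹ * (a x hxT * b x hxT) * (b x hxT)⁻¹ := by group
        _ = y⁻¹ * (u * x) * (b x hxT)⁻¹ := by rw [e x hxT]
        _ = (u⁻¹ * y)⁻¹ * x * (b x hxT)⁻¹ := by group
        _ = c⁻¹ * (b x hxT)⁻¹ := by rw [hxc]; group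
    exact (inv_mul_eq_one.1 (pS_disjoint G (closed_lSet G hn) (closed_compl G hn) (fun r _ h h' => h' h)
      (mul_mem (inv_mem ((mem_tSet G).1 hy)) (ha x hxT))
      (h1 ▸ mul_mem (inv_mem hc) (inv_mem (hb x hxT))))).symm
  · intro x hx
    have h1 : u * (x * n) = a x hx * n * (n⁻¹ * b x hx * n) := by
      rw [← mul_assoc u, e x hx]; group
    rw [← Module.End.mul_apply, ← map_mul, h1, map_mul, Module.End.mul_apply,
      hv _ (conj_compl G hn (hb x hx))]

theorem hasChar_opT {n : ↥(D.group F)} (hn : n ∈ mono D F) {v : V}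
    {χ χ' : (Fin D.rank → Fˣ) →* kˣ} (hv : HasChar G ρ v χ)
    (h : ∀ z, ∃ z', n⁻¹ * tor G z * n = tor G z' ∧ χ' z = χ z') :
    HasChar G ρ (opT G ρ n v) χ' := by
  intro z
  obtain ⟨z', hz, hχ⟩ := h z
  rw [opT, map_sum, Finset.smul_sum]
  refine Finset.sum_nbij' (fun x => tor G z * x * (tor G z)⁻¹) (fun x => (tor G z)⁻¹ * x * tor G z)
    (fun x hx => (mem_tSet G).2 (tor_normalizes G z ((mem_tSet G).1 hx))) (fun x hx => (mem_tSet G).2 ?_)
    (fun x _ => by group) (fun x _ => by group) fun x _ => ?_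
  · have := tor_normalizes G z⁻¹ ((mem_tSet G).1 hx)
    rwa [map_inv, inv_inv] at this
  · have e : tor G z * (x * n) = tor G z * x * (tor G z)⁻¹ * n * tor G z' := by rw [← hz]; group
    rw [← Module.End.mul_apply, ← map_mul, e, map_mul, Module.End.mul_apply, hv, map_smul, hχ]

theorem opT_mul_tor {n : ↥(D.group F)} (hn : n ∈ mono D F) (z : Fin D.rank → Fˣ) {v : V}
    {χ : (Fin D.rank → Fˣ) →* kˣ} (hv : HasChar G ρ v χ) :
    opT G ρ (n * tor G z) v = (χ z : k) • opT G ρ n v := by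
  have e : ∀ r : ℕ, r ∈ lSet G (n * tor G z) ↔ r ∈ lSet G n := by
    intro r
    constructor
    · intro h
      have hr := lSet_lt G h
      rw [show r = ((⟨r, hr⟩ : Fin D.nroots) : ℕ) from rfl, mem_lSet G (mul_mem hn (tor_mem G z)),
        pm_mul G hn (tor_mem G z), pm_tor, mul_one] at h
      exact (mem_lSet G hn (r := ⟨r, hr⟩)).2 h
    · intro h
      have hr := lSet_lt G h
      rw [show r = ((⟨r, hr⟩ : Fin D.nroots) : ℕ) from rfl, mem_lSet G hn] at h
      refine (mem_lSet G (mul_mem hn (tor_mem G z)) (r := ⟨r, hr⟩)).2 ?_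
      rwa [pm_mul G hn (tor_mem G z), pm_tor, mul_one]
  have e' : tSet G (n * tor G z) = tSet G n := by
    ext x; simp only [mem_tSet, show lSet G (n * tor G z) = lSet G n from Set.ext e]
  rw [opT, opT, e', Finset.smul_sum]
  refine Finset.sum_congr rfl fun x _ => ?_
  rw [← mul_assoc, map_mul, Module.End.mul_apply, hv, map_smul]

/-- `T_a T_b = T_{ab}` when the lengths add. -/
theorem opT_comp {a b : ↥(D.group F)} (ha : a ∈ mono D F) (hb : b ∈ mono D F)
    (h : ∀ r : Fin D.nroots, (r : ℕ) ∈ lSet G b → D.IsPosRoot (pm G a r)) (v : V) :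
    opT G ρ a (opT G ρ b v) = opT G ρ (a * b) v := by
  have hab := mul_mem ha hb
  have hs : ∀ r : Fin D.nroots, (pm G (a * b))⁻¹ r = (pm G b)⁻¹ ((pm G a)⁻¹ r) := fun r => by
    rw [pm_mul G ha hb, mul_inv_rev, Equiv.Perm.mul_apply]
  -- the set of `a b` is the disjoint union of the set of `a` and the image of that of `b`
  have hA : ∀ r : Fin D.nroots, D.IsPosRoot r → (r : ℕ) ∈ lSet G a → (r : ℕ) ∈ lSet G (a * b) := by
    intro r hr hra
    refine (mem_lSet G hab).2 ⟨hr, ?_⟩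
    obtain ⟨-, hneg⟩ := (mem_lSet G ha).1 hra
    rw [hs]
    set s := (pm G a)⁻¹ r
    refine (G.isPosRoot_or_isNegRoot (Fin.isLt _)).resolve_left fun hp => ?_
    -- otherwise `-s` would lie in the set of `b`
    have hns : (G.negF s : ℕ) ∈ lSet G b := by
      refine (mem_lSet G hb).2 ⟨G.isPosRoot_neg hneg, ?_⟩
      rw [show (pm G b)⁻¹ (G.negF s) = G.negF ((pm G b)⁻¹ s) by
        rw [← pm_inv G hb]; exact G.perm_negF (inv_mem hb) s]
      exact G.isNegRoot_neg hp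
    have := h _ hns
    rw [show pm G a (G.negF s) = G.negF r by
      rw [show pm G a (G.negF s) = G.negF (pm G a s) from G.perm_negF ha s]
      exact congrArg G.negF ((pm G a).apply_symm_apply r)] at this
    exact G.not_isNegRoot this (G.isNegRoot_neg hr)
  have hB : ∀ r : Fin D.nroots, D.IsPosRoot r → (r : ℕ) ∈ lSet G b →
      D.IsPosRoot (pm G a r) ∧ ((pm G a r : Fin D.nroots) : ℕ) ∈ lSet G (a * b) ∩ (lSet G a)ᶜ := by
    intro r hr hrb
    have hp := h r hrb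
    refine ⟨hp, (mem_lSet G hab).2 ⟨hp, ?_⟩, fun hc => ?_⟩
    · rw [hs, show (pm G a)⁻¹ (pm G a r) = r from (pm G a).symm_apply_apply r]
      exact ((mem_lSet G hb).1 hrb).2
    · have := ((mem_lSet G ha).1 hc).2
      rw [show (pm G a)⁻¹ (pm G a r) = r from (pm G a).symm_apply_apply r] at this
      exact G.not_isNegRoot hr this
  have hC : ∀ r : Fin D.nroots, D.IsPosRoot r → (r : ℕ) ∈ lSet G (a * b) ∩ (lSet G a)ᶜ →
      D.IsPosRoot (pm G a⁻¹ r) ∧ ((pm G a⁻¹ r : Fin D.nroots) : ℕ) ∈ lSet G b := by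
    rintro r hr ⟨h1, h2⟩
    rw [pm_inv G ha]
    have hp : D.IsPosRoot ((pm G a)⁻¹ r : Fin D.nroots) :=
      (G.isPosRoot_iff_not_neg (Fin.isLt _)).2 fun hneg => h2 ((mem_lSet G ha).2 ⟨hr, hneg⟩)
    refine ⟨hp, (mem_lSet G hb).2 ⟨hp, ?_⟩⟩
    rw [← hs]
    exact ((mem_lSet G hab).1 h1).2
  have hle : pS G (F := F) (lSet G a) ≤ pS G (lSet G (a * b)) := fun x hx =>
    G.posSub_mono (fun r hr hra => hA ⟨r, hr.1⟩ hr hra) hx
  simp only [opT, map_sum, ← Module.End.mul_apply, ← map_mul]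
  rw [← Finset.sum_product']
  have hmap : ∀ q ∈ tSet G a ×ˢ tSet G b,
      a * q.2 * a⁻¹ ∈ pS G (lSet G (a * b) ∩ (lSet G a)ᶜ) := fun q hq =>
    conj_pS G ha hB ((mem_tSet G).1 (Finset.mem_product.1 hq).2)
  refine Finset.sum_bij (fun q _ => q.1 * (a * q.2 * a⁻¹)) (fun q hq => (mem_tSet G).2 (mul_mem
    (hle ((mem_tSet G).1 (Finset.mem_product.1 hq).1)) (G.posSub_mono (fun r _ hr => hr.1) (hmap q hq)))) ?_ ?_ ?_
  · intro q hq q' hq' he
    have h1 : q.1⁻¹ * q'.1 = (a * q.2 * a⁻¹) * (a * q'.2 * a⁻¹)⁻¹ := by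
      calc q.1⁻¹ * q'.1 = q.1⁻¹ * (q'.1 * (a * q'.2 * a⁻¹)) * (a * q'.2 * a⁻¹)⁻¹ := by group
        _ = (a * q.2 * a⁻¹) * (a * q'.2 * a⁻¹)⁻¹ := by rw [← he]; group
    have hsub : ∀ {x}, x ∈ pS G (F := F) (lSet G (a * b) ∩ (lSet G a)ᶜ) → x ∈ pS G (lSet G a)ᶜ := fun hx =>
      G.posSub_mono (fun r _ hr => hr.2) hx
    have e1 : q.1 = q'.1 := inv_mul_eq_one.1 (pS_disjoint G (closed_lSet G ha) (closed_compl G ha)
      (fun r _ h h' => h' h)
      (mul_mem (inv_mem ((mem_tSet G).1 (Finset.mem_product.1 hq).1)) ((mem_tSet G).1 (Finset.mem_product.1 hq').1))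
      (h1 ▸ mul_mem (hsub (hmap q hq)) (inv_mem (hsub (hmap q' hq')))))
    rw [← e1, inv_mul_cancel, eq_comm, mul_inv_eq_one] at h1
    exact Prod.ext e1 (mul_left_cancel (mul_right_cancel h1))
  · intro z hz
    obtain ⟨x, hx, c, hc, rfl⟩ := exists_split G (lSet G a) (pS_le G _ ((mem_tSet G).1 hz))
    have hc' : c ∈ pS G (lSet G (a * b) ∩ (lSet G a)ᶜ) := by
      refine pS_inter G (closed_lSet G hab) (closed_compl G ha) ?_ hc
      have := mul_mem (inv_mem (hle hx)) ((mem_tSet G).1 hz)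
      rwa [inv_mul_cancel_left] at this
    have hy := conj_pS G (inv_mem ha) hC hc'
    rw [inv_inv] at hy
    refine ⟨(x, a⁻¹ * c * a), Finset.mem_product.2 ⟨(mem_tSet G).2 hx, (mem_tSet G).2 hy⟩, ?_⟩
    show x * (a * (a⁻¹ * c * a) * a⁻¹) = x * c
    group
  · intro q _
    congr 2
    group

/-- The operator of a fundamental reflection. -/
theorem opT_ns (i : Fin D.rank) (v : V) :
    opT G ρ (ns G i) v = ∑ t : F, ρ (rt G (D.simple i) t * ns G i) v := by
  classical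
  refine (Finset.sum_bij (fun t _ => rt G (D.simple i) t) ?_ ?_ ?_ fun t _ => rfl).symm
  · exact fun t _ => (mem_tSet G).2 (rt_mem G (G.isPosRoot_simple i.2) ((lSet_ns G i (G.simpleF i)).2 rfl) t)
  · exact fun t _ t' _ h => G.xg_injective (G.simple_lt i.2) (congrArg Subtype.val h)
  · intro x hx
    have hle : G.posSub (F := F) (lSet G (ns G (F := F) i)) ≤ D.rootSubgroup F (D.simple i) := by
      refine (Subgroup.closure_le _).2 ?_
      rintro g ⟨r, t, ⟨hr, hrS⟩, rfl⟩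
      have := (lSet_ns G i ⟨r, hr.1⟩).1 hrS
      rw [show r = D.simple i from congrArg Fin.val this]
      exact G.xg_mem_rootSubgroup _ _
    obtain ⟨t, ht⟩ := G.mem_rootSubgroup.1 (hle ((mem_tSet G).1 hx))
    exact ⟨t, Finset.mem_univ _, Subtype.ext ht.symm⟩

/-- `x_{-p}(a⁻¹)` on a fixed eigenvector. -/
theorem rt_neg_apply (i : Fin D.rank) (a : Fˣ) {m : V} (hm : IsFix ρ m)
    {χ : (Fin D.rank → Fˣ) →* kˣ} (hχ : HasChar G ρ m χ) :
    ρ (rt G (D.neg (D.simple i)) ((a : F)⁻¹)) m =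
      (χ (Pi.mulSingle i (-a)⁻¹) : k) • ρ (rt G (D.simple i) (a : F) * ns G i) m := by
  rw [rt_neg_eq, map_mul, Module.End.mul_apply,
    hm _ (G.xg_mem_pos (G.isPosRoot_simple i.2) (a : F))]
  rw [show rt G (D.simple i) (a : F) * tor G (Pi.mulSingle i (-a)) * ns G i =
      rt G (D.simple i) (a : F) * ns G i * ((ns G i)⁻¹ * tor G (Pi.mulSingle i (-a)) * ns G i) by group,
    tor_conj_ns_single, map_mul, Module.End.mul_apply, hχ, map_smul]

open scoped Classical in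
/-- The square of `T_i`. -/
theorem opT_sq (p : ℕ) [Fact p.Prime] [CharP F p] [CharP k p] (i : Fin D.rank) {v : V} (hv : IsFix ρ v)
    {χ : (Fin D.rank → Fˣ) →* kˣ} (hχ : HasChar G ρ v χ) :
    opT G ρ (ns G i) (opT G ρ (ns G i) v) =
      if ∀ c, χ (Pi.mulSingle i c) = 1 then -opT G ρ (ns G i) v else 0 := by
  set n := ns G (F := F) i with hn
  set x := rt G (F := F) (D.simple i) with hx
  set T := opT G ρ n v with hT
  have hq : (Fintype.card F : k) = 0 := by
    obtain ⟨m, -, hm⟩ := FiniteField.card F p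
    rw [hm, Nat.cast_pow, CharP.cast_eq_zero, zero_pow m.ne_zero]
  have hxadd : ∀ s t : F, x s * x t = x (s + t) := fun s t => Subtype.ext (G.xg_add _ s t)
  have hterm0 : ρ (n * x 0 * n) v = (χ (Pi.mulSingle i (-1 : Fˣ)⁻¹) : k) • v := by
    rw [show x 0 = 1 from Subtype.ext (G.xg_zero _), mul_one, ns_mul_ns, hχ]
  have hterm : ∀ t : Fˣ, ρ (n * x (t : F) * n) v =
      ((χ (Pi.mulSingle i (-1 : Fˣ)⁻¹) : k) * (χ (Pi.mulSingle i t) : k)) • ρ (x (-(t : F)⁻¹) * n) v := by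
    intro t
    have h1 : n * x (t : F) * n = rt G (D.neg (D.simple i)) (-(t : F)) * (n * n) := by
      rw [hn, hx, ns_mul_rt, mul_assoc]
    have h2 := rt_neg_apply G ρ i (-t⁻¹) hv hχ
    rw [show ((((-t⁻¹ : Fˣ)) : F))⁻¹ = -(t : F) by simp, _root_.neg_neg, inv_inv] at h2
    rw [h1, map_mul, Module.End.mul_apply, hn, ns_mul_ns, hχ, map_smul, h2, smul_smul]
    simp
    rfl
  have hTT : opT G ρ n T = ∑ t : F, ∑ s : F, ρ (x s) (ρ (n * x t * n) v) := by
    rw [hT, hn, opT_ns, opT_ns, Finset.sum_comm]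
    refine Finset.sum_congr rfl fun s _ => ?_
    rw [map_sum]
    refine Finset.sum_congr rfl fun t _ => ?_
    simp only [← Module.End.mul_apply, ← map_mul, hx, mul_assoc]
  have hsum : ∀ t : Fˣ, ∑ s : F, ρ (x s) (ρ (n * x (t : F) * n) v) =
      ((χ (Pi.mulSingle i (-1 : Fˣ)⁻¹) : k) * (χ (Pi.mulSingle i t) : k)) • T := by
    intro t
    simp only [hterm, map_smul, ← Finset.smul_sum, ← Module.End.mul_apply, ← map_mul, ← mul_assoc, hxadd]
    congr 1
    rw [hT, hn, opT_ns]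
    exact Fintype.sum_equiv (Equiv.addRight (-(t : F)⁻¹)) _ _ fun s => rfl
  have h0 : ∑ s : F, ρ (x s) (ρ (n * x 0 * n) v) = 0 := by
    have hfix : ∀ s : F, ρ (x s) ((χ (Pi.mulSingle i (-1 : Fˣ)⁻¹) : k) • v) =
        (χ (Pi.mulSingle i (-1 : Fˣ)⁻¹) : k) • v := fun s => by
      rw [map_smul, hv (x s) (G.xg_mem_pos (G.isPosRoot_simple i.2) s)]
    simp only [hterm0, hfix]
    rw [Finset.sum_const, Finset.card_univ, ← Nat.cast_smul_eq_nsmul k, hq, zero_smul]
  rw [hTT, ← Finset.add_sum_erase _ _ (Finset.mem_univ (0 : F)), h0, zero_add,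
    show ∑ t ∈ Finset.univ.erase (0 : F), ∑ s : F, ρ (x s) (ρ (n * x t * n) v) =
      ∑ t : Fˣ, ∑ s : F, ρ (x s) (ρ (n * x (t : F) * n) v) from
      Finset.sum_bij' (fun t ht => Units.mk0 t (Finset.mem_erase.1 ht).1) (fun t _ => (t : F))
        (fun t _ => Finset.mem_univ _) (fun t _ => Finset.mem_erase.2 ⟨t.ne_zero, Finset.mem_univ _⟩)
        (fun t _ => rfl) (fun t _ => Units.ext rfl) fun t _ => rfl]
  simp only [hsum, ← Finset.sum_smul, ← Finset.mul_sum]
  have hchar := sum_hom_units (R := k) ((Units.coeHom k).comp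
    (χ.comp (MonoidHom.mulSingle (fun _ : Fin D.rank => Fˣ) i)))
  simp only [MonoidHom.comp_apply, Units.coeHom_apply, MonoidHom.mulSingle_apply] at hchar
  rw [hchar]
  split_ifs with h1 h2 h2
  · rw [h2 (-1 : Fˣ)⁻¹, Units.val_one, one_mul, Fintype.card_units, Nat.cast_sub Fintype.card_pos, hq,
      Nat.cast_one, zero_sub, neg_one_smul]
  · exact absurd (fun c => Units.ext (DFunLike.congr_fun h1 c)) h2
  · exact absurd (MonoidHom.ext fun c => by simp [h2 c]) h1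
  · rw [Nat.cast_zero, mul_zero, zero_smul]

end Cfsg.Agent.H47.Hecke
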