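import Cfsg.Agent.H47.CoxeterTypes

/-!
Orders of Coxeter elements, computed in the faithful reflection representation.
-/

set_option autoImplicit false

namespace Cfsg.Agent.H47

variable {n : ℕ} {M : CoxeterMatrix (Fin n)} {A : Fin n → Fin n → ℤ}

/-- The orbit `v, c v, …, c^h v` of a list vector under the Coxeter element. -/
def coxeterIter (A : Fin n → Fin n → ℤ) : ℕ → List ℤ → List (List ℤ)
  | 0, v => [v]
  | m + 1, v => v :: coxeterIter A m (rootWordL A (List.finRange n) v)

theorem coxeterIter_getElem (A : Fin n → Fin n → ℤ) : ∀ (h : ℕ) (v : Fin n → ℤ) (j : ℕ), j ≤ h →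
    (coxeterIter A h (List.ofFn v)).getD j [] =
      List.ofFn ((((List.finRange n).map (rootReflLin A)).prod ^ j) v) := by
  intro h
  induction h with
  | zero =>
    intro v j hj
    obtain rfl : j = 0 := by omega
    simp [coxeterIter]
  | succ h ih =>
    intro v j hj
    cases j with
    | zero => simp [coxeterIter]
    | succ j =>
      rw [coxeterIter, List.getD_cons_succ, rootWordL_ofFn, ih _ j (by omega), pow_succ,
        Module.End.mul_apply]

/-- Certificate that the Coxeter element has order `h`. -/
def coxeterOrderCert (A : Fin n → Fin n → ℤ) (h : ℕ) : Bool :=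
  let T := (List.finRange n).map fun k => coxeterIter A h (List.ofFn (simpleRootVec k))
  decide (0 < h) &&
    (List.range (h + 1)).all fun j =>
      if j = 0 then true else
        (T.zip ((List.finRange n).map fun k => List.ofFn (simpleRootVec k))).all
          (fun x => decide (x.1.getD j [] = x.2)) == decide (j = h)

theorem orderOf_coxeterElement (hA : CartanFor M A) (h : ℕ) (hc : coxeterOrderCert A h = true) :
    orderOf ((List.finRange n).map M.simple).prod = h := by
  rw [← orderOf_injective (reflRep hA) (reflRep_injective hA)]
  have hprod : reflRep hA ((List.finRange n).map M.simple).prod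
      = ((List.finRange n).map (rootReflLin A)).prod := by
    rw [← reflRep_wordProd hA, CoxeterSystem.wordProd, CoxeterMatrix.toCoxeterSystem_simple]
  rw [hprod]
  simp only [coxeterOrderCert, Bool.and_eq_true, decide_eq_true_eq, List.all_eq_true,
    List.mem_range] at hc
  obtain ⟨hpos, hall⟩ := hc
  set C := ((List.finRange n).map (rootReflLin A)).prod with hC
  have key : ∀ j, 0 < j → j ≤ h → (C ^ j = 1 ↔ j = h) := by
    intro j hj0 hjh
    have hb := hall j (by omega)
    rw [if_neg (by omega), beq_iff_eq, Bool.eq_iff_iff, decide_eq_true_eq, List.all_eq_true] at hb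
    rw [← hb]
    constructor
    · intro h1 x hx
      rw [List.zip_map', List.mem_map] at hx
      obtain ⟨k, -, rfl⟩ := hx
      simp only [decide_eq_true_eq]
      rw [coxeterIter_getElem A h _ j hjh, ← hC, h1]
      rfl
    · intro h1
      refine LinearMap.ext fun v => ?_
      conv_lhs => rw [← sum_smul_simpleRootVec v]
      conv_rhs => rw [Module.End.one_apply, ← sum_smul_simpleRootVec v]
      rw [map_sum]
      refine Finset.sum_congr rfl fun k _ => ?_
      have := h1 (coxeterIter A h (List.ofFn (simpleRootVec k)), List.ofFn (simpleRootVec k))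
        (by rw [List.zip_map', List.mem_map]; exact ⟨k, List.mem_finRange k, rfl⟩)
      simp only [decide_eq_true_eq] at this
      rw [coxeterIter_getElem A h _ j hjh, ← hC] at this
      rw [map_smul, List.ofFn_injective this]
  refine (orderOf_eq_iff hpos).mpr ⟨(key h hpos le_rfl).mpr rfl, fun m hm hm0 h1 => ?_⟩
  have := (key m hm0 hm.le).mp h1
  omega

end Cfsg.Agent.H47
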