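import Cfsg.Agent.H43.D1.ModP

/-!
# Irreducible modules in characteristic `p` and the `p`-regular classes

The traces of the irreducible modules span the functions on the `p`-regular classes (Brauer), so a set of labels
that separates the irreducible modules has at least as many elements as there are `p`-regular classes.
-/

set_option autoImplicit false

namespace Cfsg.Agent.H47.Modular

open Module Cfsg.Agent.H43.D1

universe u v w

variable {k : Type v} [Field k] {Γ : Type u} [Group Γ] {p : ℕ} [hp : Fact p.Prime]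

/-- A finite `p`-group fixes a nonzero vector of a space in characteristic `p`. -/
theorem exists_fixed [CharP k p] {X : Type w} [AddCommGroup X] [Module k X] {Y : Type*} [Group Y] [Finite Y]
    (hY : IsPGroup p Y) (σ : Y →* Module.End k X) {x : X} (hx : x ≠ 0) :
    ∃ z : X, z ≠ 0 ∧ ∀ y, σ y z = z := by
  classical
  let S : AddSubgroup X := AddSubgroup.closure (Set.range fun y => σ y x)
  have hpx : ∀ z : X, p • z = 0 := fun z => by
    rw [← Nat.cast_smul_eq_nsmul k, CharP.cast_eq_zero, zero_smul]
  have hSσ : ∀ y : Y, ∀ z ∈ S, σ y z ∈ S := by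
    intro y z hz
    induction hz using AddSubgroup.closure_induction with
    | mem z hz =>
      obtain ⟨y', rfl⟩ := hz
      exact AddSubgroup.subset_closure ⟨y * y', by simp⟩
    | zero => rw [map_zero]; exact zero_mem S
    | add a b _ _ ha hb => rw [map_add]; exact add_mem ha hb
    | neg a _ ha => rw [map_neg]; exact neg_mem ha
  letI : MulAction Y S :=
    { smul := fun y z => ⟨σ y z, hSσ y z z.2⟩
      one_smul := fun z => Subtype.ext (by show σ 1 (z : X) = z; simp)
      mul_smul := fun a b z => Subtype.ext (by show σ (a * b) (z : X) = σ a (σ b z); simp) }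
  haveI : AddGroup.FG S := (AddGroup.fg_iff_addSubgroup_fg S).2
    ⟨(Set.finite_range fun y => σ y x).toFinset, by simp [S]⟩
  have hS : AddMonoid.IsTorsion S := fun z =>
    isOfFinAddOrder_iff_nsmul_eq_zero.2 ⟨p, hp.out.pos, Subtype.ext (hpx z)⟩
  haveI : Finite S := AddCommGroup.finite_of_fg_isAddTorsion _ hS
  have hxS : x ∈ S := AddSubgroup.subset_closure ⟨1, by simp⟩
  have hdvd : p ∣ Nat.card S := by
    have h1 : addOrderOf (⟨x, hxS⟩ : S) = p :=
      addOrderOf_eq_prime (Subtype.ext (hpx x)) fun h => hx (congrArg Subtype.val h)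
    exact h1 ▸ addOrderOf_dvd_natCard _
  have h0 : (0 : S) ∈ MulAction.fixedPoints Y S := fun y => Subtype.ext (map_zero (σ y))
  obtain ⟨z, hz, hne⟩ := hY.exists_fixed_point_of_prime_dvd_card_of_fixed_point S hdvd h0
  exact ⟨z, fun h => hne (Subtype.ext h.symm), fun y => congrArg Subtype.val (hz y)⟩

/-- The dual action. -/
def dualRep {V : Type w} [AddCommGroup V] [Module k V] (ρ : Γ →* Module.End k V) :
    Γ →* Module.End k (Module.Dual k V) where
  toFun g := (ρ g⁻¹).dualMap
  map_one' := by ext f v; simp
  map_mul' a b := by ext f v; simp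

theorem dualRep_apply {V : Type w} [AddCommGroup V] [Module k V] (ρ : Γ →* Module.End k V) (g : Γ)
    (f : Module.Dual k V) (v : V) : dualRep ρ g f v = f (ρ g⁻¹ v) := rfl

/-- A finite `p`-group leaves a nonzero functional invariant. -/
theorem exists_invariant_functional [CharP k p] {X : Type w} [AddCommGroup X] [Module k X] {Y : Type*}
    [Group Y] [Finite Y] (hY : IsPGroup p Y) (σ : Y →* Module.End k X) {x : X} (hx : x ≠ 0) :
    ∃ f : Module.Dual k X, f ≠ 0 ∧ ∀ y z, f (σ y z) = f z := by
  obtain ⟨f, hf⟩ := exists_dual_ne_zero (k := k) hx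
  obtain ⟨g, hg, hfix⟩ := exists_fixed hY (dualRep σ) (x := f) fun h => hf (by rw [h]; rfl)
  refine ⟨g, hg, fun y z => ?_⟩
  have := LinearMap.congr_fun (hfix y⁻¹) z
  rwa [dualRep_apply, inv_inv] at this

/-- The dual of an irreducible module is irreducible. -/
theorem isIrred_dual {V : Type w} [AddCommGroup V] [Module k V] [FiniteDimensional k V]
    {ρ : Γ →* Module.End k V} (h : IsIrred ρ) : IsIrred (dualRep ρ) := by
  have := h.1
  refine ⟨inferInstance, fun W hW => ?_⟩
  have hinv : ∀ g : Γ, ∀ v ∈ W.dualCoannihilator, ρ g v ∈ W.dualCoannihilator := by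
    intro g v hv
    rw [Submodule.mem_dualCoannihilator] at hv ⊢
    intro f hf
    have := hv _ (hW g⁻¹ f hf)
    rwa [dualRep_apply, inv_inv] at this
  rcases h.2 W.dualCoannihilator hinv with hb | ht
  · right
    rw [← Subspace.dualCoannihilator_dualAnnihilator_eq (W := W), hb, Submodule.dualAnnihilator_bot]
  · left
    rw [← Subspace.dualCoannihilator_dualAnnihilator_eq (W := W), ht, Submodule.dualAnnihilator_top]

/-- The trace splits along an invariant subspace. -/
theorem trace_split {V : Type w} [AddCommGroup V] [Module k V] [FiniteDimensional k V] (W : Submodule k V)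
    (f : Module.End k V) (hf : ∀ x ∈ W, f x ∈ W) :
    LinearMap.trace k V f = LinearMap.trace k W (f.restrict hf) +
      LinearMap.trace k (V ⧸ W) (W.mapQ W f hf) := by
  obtain ⟨C, hC⟩ := Submodule.exists_isCompl W
  set πW : V →ₗ[k] W := Submodule.projectionOnto W C hC
  set πC : V →ₗ[k] C := Submodule.projectionOnto C W hC.symm
  have hid : LinearMap.id = W.subtype ∘ₗ πW + C.subtype ∘ₗ πC := LinearMap.ext fun v =>
    (Submodule.projection_add_projection_eq_self hC v).symm
  have h1 : LinearMap.trace k V f = LinearMap.trace k V ((f ∘ₗ W.subtype) ∘ₗ πW) +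
      LinearMap.trace k V ((f ∘ₗ C.subtype) ∘ₗ πC) := by
    rw [← map_add]
    congr 1
    conv_lhs => rw [← LinearMap.comp_id f, hid, LinearMap.comp_add]
    rw [LinearMap.comp_assoc, LinearMap.comp_assoc]
  rw [h1, LinearMap.trace_comp_comm' πW (f ∘ₗ W.subtype), LinearMap.trace_comp_comm' πC (f ∘ₗ C.subtype)]
  congr 1
  · congr 1
    ext x
    simp only [LinearMap.comp_apply, Submodule.subtype_apply, LinearMap.coe_restrict_apply, πW]
    rw [show f (x : V) = ((⟨f x, hf _ x.2⟩ : W) : V) from rfl, Submodule.projectionOnto_apply_left]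
  · set e : (V ⧸ W) ≃ₗ[k] C := Submodule.quotientEquivOfIsCompl W C hC
    rw [← LinearMap.trace_conj' (W.mapQ W f hf) e]
    congr 1

/-- The function `g ↦ trace (ρ g ∘ R)` lies in the span of the irreducible traces, for `R` commuting with `ρ`. -/
theorem trace_mem_span [IsAlgClosed k] (S : Submodule k (Γ → k))
    (hS : ∀ (V : Type w) [AddCommGroup V] [Module k V] [FiniteDimensional k V] (ρ : Γ →* Module.End k V),
      IsIrred ρ → (fun g => LinearMap.trace k V (ρ g)) ∈ S) :
    ∀ (n : ℕ) (V : Type w) [AddCommGroup V] [Module k V] [FiniteDimensional k V] (ρ : Γ →* Module.End k V)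
      (R : Module.End k V), (∀ g, ρ g * R = R * ρ g) → finrank k V = n →
      (fun g => LinearMap.trace k V (ρ g * R)) ∈ S := by
  intro n
  induction n using Nat.strong_induction_on with
  | _ n ih =>
    intro V _ _ _ ρ R hR hn
    rcases subsingleton_or_nontrivial V with hV | hV
    · have : (fun g => LinearMap.trace k V (ρ g * R)) = 0 := funext fun g => by
        rw [Subsingleton.elim (ρ g * R) 0, map_zero]; rfl
      rw [this]; exact zero_mem S
    obtain ⟨c, hc⟩ := Module.End.exists_eigenvalue R
    have hEinv : ∀ g, ∀ x ∈ Module.End.eigenspace R c, ρ g x ∈ Module.End.eigenspace R c := by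
      intro g x hx
      rw [Module.End.mem_eigenspace_iff] at hx ⊢
      have := LinearMap.congr_fun (hR g) x
      simp only [Module.End.mul_apply] at this
      rw [← this, hx, map_smul]
    -- a proper invariant subspace splits the function
    have split : ∀ W : Submodule k V, W ≠ ⊥ → W ≠ ⊤ → (∀ g, ∀ x ∈ W, ρ g x ∈ W) → (∀ x ∈ W, R x ∈ W) →
        (fun g => LinearMap.trace k V (ρ g * R)) ∈ S := by
      intro W hb ht hW hRW
      have hgR : ∀ g, ∀ x ∈ W, (ρ g * R) x ∈ W := fun g x hx => hW g _ (hRW x hx)
      have e : (fun g => LinearMap.trace k V (ρ g * R)) =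
          (fun g => LinearMap.trace k W ((ρ g).restrict (hW g) * R.restrict hRW)) +
            fun g => LinearMap.trace k (V ⧸ W) (W.mapQ W (ρ g) (hW g) * W.mapQ W R hRW) := by
        funext g
        rw [Pi.add_apply, trace_split W (ρ g * R) (hgR g)]
        congr 2 <;> first
          | (ext x; rfl)
          | (refine Submodule.linearMap_qext _ (LinearMap.ext fun x => ?_); rfl)
      rw [e]
      let ρW : Γ →* Module.End k W :=
        { toFun := fun g => (ρ g).restrict (hW g)
          map_one' := LinearMap.ext fun x => Subtype.ext (by simp)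
          map_mul' := fun a b => LinearMap.ext fun x => Subtype.ext (by simp) }
      let ρQ : Γ →* Module.End k (V ⧸ W) :=
        { toFun := fun g => W.mapQ W (ρ g) (hW g)
          map_one' := Submodule.linearMap_qext _ (LinearMap.ext fun x => by simp)
          map_mul' := fun a b => Submodule.linearMap_qext _ (LinearMap.ext fun x => by simp) }
      refine add_mem (ih (finrank k W) (hn ▸ Submodule.finrank_lt ht) W ρW (R.restrict hRW) (fun g => ?_) rfl)
        (ih (finrank k (V ⧸ W)) ?_ (V ⧸ W) ρQ (W.mapQ W R hRW) (fun g => ?_) rfl)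
      · exact LinearMap.ext fun x => Subtype.ext (LinearMap.congr_fun (hR g) x)
      · have h1 := W.finrank_quotient_add_finrank
        have h2 : 0 < finrank k W := Module.finrank_pos_iff.2 ((Submodule.nontrivial_iff_ne_bot).2 hb)
        omega
      · exact Submodule.linearMap_qext _ (LinearMap.ext fun x =>
          congrArg (Submodule.Quotient.mk (p := W)) (LinearMap.congr_fun (hR g) x))
    by_cases hE : Module.End.eigenspace R c = ⊤
    · have hRc : R = c • (1 : Module.End k V) := LinearMap.ext fun x => by
        simpa using Module.End.mem_eigenspace_iff.1 (hE ▸ Submodule.mem_top : x ∈ Module.End.eigenspace R c)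
      by_cases hirr : IsIrred ρ
      · have : (fun g => LinearMap.trace k V (ρ g * R)) = c • fun g => LinearMap.trace k V (ρ g) := by
          funext g; rw [hRc]; simp
        rw [this]; exact S.smul_mem c (hS V ρ hirr)
      · rw [IsIrred] at hirr
        push Not at hirr
        obtain ⟨W, hW, hb, ht⟩ := hirr hV
        exact split W hb ht hW fun x hx => by rw [hRc]; simpa using W.smul_mem c hx
    · exact split _ (Module.End.hasEigenvalue_iff.1 hc) hE hEinv fun x hx => by
        rw [Module.End.mem_eigenspace_iff] at hx ⊢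
        rw [hx, map_smul, hx]

/-- The left translations on the functions on a set. -/
noncomputable def permRep (k : Type v) [Field k] (Γ : Type u) [Group Γ] (α : Type*) [MulAction Γ α] :
    Γ →* Module.End k (α → k) where
  toFun g := LinearMap.funLeft k k fun a => g⁻¹ • a
  map_one' := by ext f a; simp
  map_mul' a b := by ext f x; simp [mul_smul]

/-- Brauer: the irreducible traces separate the `p`-regular classes. -/
theorem card_regClasses_le [IsAlgClosed k] [CharP k p] [Finite Γ] {ι : Type*} [Fintype ι] (f : ι → Γ → k)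
    (hf : ∀ (V : Type (max u v)) [AddCommGroup V] [Module k V] [FiniteDimensional k V]
      (ρ : Γ →* Module.End k V), IsIrred ρ → (fun g => LinearMap.trace k V (ρ g)) ∈ Set.range f) :
    Nat.card (regClasses p Γ) ≤ Fintype.card ι := by
  classical
  letI : Fintype Γ := Fintype.ofFinite Γ
  set S := Submodule.span k (Set.range f) with hSdef
  -- the regular classes are separated by the functions in `S`
  have hind : ∀ y : Γ, ¬ p ∣ orderOf y → ∃ φ ∈ S, φ y ≠ 0 ∧
      ∀ g, ¬ p ∣ orderOf g → ¬ IsConj y g → φ g = 0 := by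
    intro y hy
    set C := Subgroup.centralizer ({y} : Set Γ) with hC
    obtain ⟨P₀⟩ : Nonempty (Sylow p C) := inferInstance
    set P := (P₀ : Subgroup C).map C.subtype with hP
    have hPC : P ≤ C := Subgroup.map_subtype_le _
    have hyP : ∀ u ∈ P, y * u = u * y := fun u hu =>
      (Subgroup.mem_centralizer_singleton_iff.1 (hPC hu)).symm
    -- right multiplication by `y`
    let r : Γ ⧸ P → Γ ⧸ P := Quotient.map' (fun x => x * y) fun a b hab => by
      rw [QuotientGroup.leftRel_apply] at hab ⊢
      have : (a * y)⁻¹ * (b * y) = a⁻¹ * b := by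
        rw [show (a * y)⁻¹ * (b * y) = y⁻¹ * ((a⁻¹ * b) * y) by group, ← hyP _ hab]
        group
      rwa [this]
    let R : Module.End k (Γ ⧸ P → k) := LinearMap.funLeft k k r
    have hcomm : ∀ g, permRep k Γ (Γ ⧸ P) g * R = R * permRep k Γ (Γ ⧸ P) g := by
      intro g
      refine LinearMap.ext fun φ => funext fun a => ?_
      obtain ⟨x, rfl⟩ := QuotientGroup.mk_surjective a
      show φ (r (g⁻¹ • (x : Γ ⧸ P))) = φ (g⁻¹ • r (x : Γ ⧸ P))
      exact congrArg φ (congrArg QuotientGroup.mk (mul_assoc g⁻¹ x y))
    have htr : ∀ g, LinearMap.trace k _ (permRep k Γ (Γ ⧸ P) g * R) =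
        ((Finset.univ.filter fun a : Γ ⧸ P => r (g⁻¹ • a) = a).card : k) := by
      intro g
      rw [LinearMap.trace_eq_matrix_trace k (Pi.basisFun k (Γ ⧸ P)), Matrix.trace, Finset.card_filter,
        Nat.cast_sum]
      refine Finset.sum_congr rfl fun a _ => ?_
      rw [Matrix.diag_apply, LinearMap.toMatrix_apply, Pi.basisFun_repr, Pi.basisFun_apply]
      show (Pi.single a (1 : k) : _ → k) (r (g⁻¹ • a)) = _
      rw [Pi.single_apply]
      split_ifs <;> simp
    -- a coset fixed by `g` and `r` carries `g` to `y`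
    have hkey : ∀ g x : Γ, ¬ p ∣ orderOf g → r (g⁻¹ • (x : Γ ⧸ P)) = (x : Γ ⧸ P) →
        x⁻¹ * g * x = y := by
      intro g x hg h
      change ((g⁻¹ * x * y : Γ) : Γ ⧸ P) = (x : Γ ⧸ P) at h
      rw [QuotientGroup.eq] at h
      obtain ⟨j, hj⟩ := P₀.2.map C.subtype ⟨_, h⟩
      set w := (g⁻¹ * x * y)⁻¹ * x with hw
      have hwy : Commute y w := hyP w h
      have hx : x⁻¹ * g * x = y * w := by rw [hw]; group
      have hwp : w ^ p ^ j = 1 := congrArg Subtype.val hj
      have h1 : (y * w) ^ orderOf g = 1 := by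
        rw [← hx, show x⁻¹ * g * x = MulAut.conj x⁻¹ g by simp [MulAut.conj_apply], ← map_pow,
          pow_orderOf_eq_one, map_one]
      have h2 : w ^ (orderOf g * orderOf y) = 1 := by
        have h3 : (y * w) ^ (orderOf g * orderOf y) = 1 := by rw [pow_mul, h1, one_pow]
        rwa [hwy.mul_pow, show y ^ (orderOf g * orderOf y) = 1 by
          rw [mul_comm, pow_mul, pow_orderOf_eq_one, one_pow], one_mul] at h3
      have hw1 : w = 1 := by
        refine orderOf_eq_one_iff.1 (Nat.eq_one_of_dvd_coprimes ?_ (orderOf_dvd_of_pow_eq_one hwp)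
          (orderOf_dvd_of_pow_eq_one h2))
        exact Nat.Coprime.pow_left _ ((hp.out.coprime_iff_not_dvd).2 fun h =>
          ((Nat.Prime.dvd_mul hp.out).1 h).elim hg hy)
      rw [hx, hw1, mul_one]
    refine ⟨fun g => LinearMap.trace k _ (permRep k Γ (Γ ⧸ P) g * R),
      trace_mem_span S (fun V _ _ _ ρ h => Submodule.subset_span (hf V ρ h)) _ _ _ R hcomm rfl, ?_, ?_⟩
    · -- at `y` the fixed cosets are those inside the centraliser
      show LinearMap.trace k _ (permRep k Γ (Γ ⧸ P) y * R) ≠ 0
      rw [htr, Ne, CharP.cast_eq_zero_iff k p]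
      have hbij : Nat.card (C ⧸ (P₀ : Subgroup C)) =
          (Finset.univ.filter fun a : Γ ⧸ P => r (y⁻¹ • a) = a).card := by
        rw [← Nat.card_eq_finsetCard]
        let φ : C ⧸ (P₀ : Subgroup C) → {a : Γ ⧸ P // a ∈ Finset.univ.filter fun a => r (y⁻¹ • a) = a} :=
          fun q => ⟨Quotient.map' (Subtype.val : C → Γ) (fun a b hab => by
              rw [QuotientGroup.leftRel_apply] at hab ⊢
              exact ⟨_, hab, by simp⟩) q, by
            refine Finset.mem_filter.2 ⟨Finset.mem_univ _, ?_⟩
            obtain ⟨c, rfl⟩ := QuotientGroup.mk_surjective q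
            show ((y⁻¹ * (c : Γ) * y : Γ) : Γ ⧸ P) = ((c : Γ) : Γ ⧸ P)
            rw [mul_assoc, Subgroup.mem_centralizer_singleton_iff.1 c.2, inv_mul_cancel_left]⟩
        refine Nat.card_eq_of_bijective φ ⟨?_, ?_⟩
        · intro a b hab
          obtain ⟨c, rfl⟩ := QuotientGroup.mk_surjective a
          obtain ⟨d, rfl⟩ := QuotientGroup.mk_surjective b
          have h' : ((c : Γ) : Γ ⧸ P) = ((d : Γ) : Γ ⧸ P) := congrArg Subtype.val hab
          rw [QuotientGroup.eq] at h' ⊢
          obtain ⟨e, he, he'⟩ := h'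
          have : e = c⁻¹ * d := Subtype.ext (by simpa using he')
          exact this ▸ he
        · rintro ⟨a, ha⟩
          obtain ⟨x, rfl⟩ := QuotientGroup.mk_surjective a
          have hx := hkey y x hy (Finset.mem_filter.1 ha).2
          have hxC : x ∈ C := Subgroup.mem_centralizer_singleton_iff.2 (by
            calc x * y = x * (x⁻¹ * y * x) := by rw [hx]
              _ = y * x := by group)
          exact ⟨((⟨x, hxC⟩ : C) : C ⧸ (P₀ : Subgroup C)), rfl⟩
      rw [← hbij]
      exact Sylow.not_dvd_index P₀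
    · intro g hg hng
      show LinearMap.trace k _ (permRep k Γ (Γ ⧸ P) g * R) = 0
      rw [htr, Finset.filter_eq_empty_iff.2 fun a _ => ?_]
      · simp
      · obtain ⟨x, rfl⟩ := QuotientGroup.mk_surjective a
        intro h
        refine hng (IsConj.symm (isConj_iff.2 ⟨x⁻¹, ?_⟩))
        rw [inv_inv]; exact hkey g x hg h
  letI : Fintype (regClasses p Γ) := Fintype.ofFinite _
  let res : (Γ → k) →ₗ[k] (regClasses p Γ → k) := LinearMap.funLeft k k fun C => C.2.choose
  have htop : Submodule.span k (Set.range fun i => res (f i)) = ⊤ := by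
    have e : Submodule.span k (Set.range fun i => res (f i)) = S.map res := by
      rw [hSdef, Submodule.map_span, ← Set.range_comp]; rfl
    rw [e, eq_top_iff, ← (Pi.basisFun k (regClasses p Γ)).span_eq, Submodule.span_le]
    rintro _ ⟨C, rfl⟩
    obtain ⟨φ, hφ, hne, hzero⟩ := hind C.2.choose C.2.choose_spec.1
    refine ⟨(φ C.2.choose)⁻¹ • φ, S.smul_mem _ hφ, funext fun C' => ?_⟩
    rw [map_smul, Pi.basisFun_apply, Pi.smul_apply, smul_eq_mul, Pi.single_apply]
    show (φ C.2.choose)⁻¹ * φ C'.2.choose = _
    split_ifs with h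
    · subst h; exact inv_mul_cancel₀ hne
    · rw [hzero _ C'.2.choose_spec.1 fun hc => h (Subtype.ext ?_), mul_zero]
      rw [← C'.2.choose_spec.2, ← C.2.choose_spec.2]
      exact (ConjClasses.mk_eq_mk_iff_isConj.2 hc).symm
  have h1 := finrank_range_le_card (R := k) (fun i => res (f i))
  rw [Set.finrank, htop, finrank_top, Module.finrank_fintype_fun_eq_card] at h1
  rwa [Nat.card_eq_fintype_card]

end Cfsg.Agent.H47.Modular
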