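import Cfsg.Agent.H47.ChevHecke
import Cfsg.Agent.H47.ModularCount

/-!
# Weights of the irreducible modules in the defining characteristic (Curtis–Richen)

For a Chevalley group with injective torus every irreducible module has a unique weight `(χ, K)`, every
admissible pair occurs, and the weight determines the module.  So there are `q ^ rank` of them, and by Brauer
as many `p`-regular classes.
-/

set_option autoImplicit false

namespace Cfsg.Agent.H47.Hecke

open Cfsg.Lie Cfsg.Agent.H46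
open Cfsg.Agent.H43.D1 (IsIrred regClasses)
open scoped Matrix MatrixGroups

universe u v w

variable {D : ChevalleyDatum} (G : Good D) {F : Type u} [Field F]

/-! ### Generators -/

/-- The root subgroups of `±` a fundamental root. -/
def levi (i : Fin D.rank) : Subgroup ↥(D.group F) :=
  Subgroup.closure {g | ∃ t : F, g = rt G (D.simple i) t ∨ g = rt G (D.neg (D.simple i)) t}

/-- The negative root groups other than that of `-p_i`. -/
def lowRest (i : Fin D.rank) : Subgroup ↥(D.group F) :=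
  Subgroup.closure {g | ∃ (r : ℕ) (t : F), D.IsNegRoot r ∧ r ≠ D.neg (D.simple i) ∧ g = rt G r t}

include G

theorem lower_eq : lower D F = Subgroup.closure {g | ∃ (r : ℕ) (t : F), D.IsNegRoot r ∧ g = rt G r t} := by
  apply Subgroup.map_injective (D.group F).subtype_injective
  rw [MonoidHom.map_closure, lower, Subgroup.subgroupOf_map_subtype, inf_eq_left.2 ?_,
    ChevalleyDatum.negUnipotent]
  · congr 1
    ext g
    constructor
    · rintro ⟨r, t, hr, hg⟩
      exact ⟨rt G r t, ⟨r, t, hr, rfl⟩, (G.eq_xg hg).symm⟩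
    · rintro ⟨_, ⟨r, t, hr, rfl⟩, rfl⟩
      exact ⟨r, t, hr, G.coe_xg r t⟩
  · refine (Subgroup.closure_le _).2 ?_
    rintro g ⟨r, t, hr, hg⟩
    rw [G.eq_xg hg]; exact G.xg_mem_group r t

theorem lowRest_le (i : Fin D.rank) : lowRest G (F := F) i ≤ lower D F := by
  refine (Subgroup.closure_le _).2 ?_
  rintro g ⟨r, t, hr, -, rfl⟩
  exact G.xg_mem_neg hr t

theorem mem_levi_pos (i : Fin D.rank) (t : F) : rt G (D.simple i) t ∈ levi G i :=
  Subgroup.subset_closure ⟨t, Or.inl rfl⟩

theorem mem_levi_neg (i : Fin D.rank) (t : F) : rt G (D.neg (D.simple i)) t ∈ levi G i :=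
  Subgroup.subset_closure ⟨t, Or.inr rfl⟩

theorem ns_mem_levi (i : Fin D.rank) : ns G (F := F) i ∈ levi G i := by
  have e : ns G (F := F) i =
      rt G (D.simple i) (1 : F) * rt G (D.neg (D.simple i)) (-1⁻¹) * rt G (D.simple i) 1 := Subtype.ext rfl
  rw [e]
  exact mul_mem (mul_mem (mem_levi_pos G i _) (mem_levi_neg G i _)) (mem_levi_pos G i _)

theorem conj_lowRest (i : Fin D.rank) {g x : ↥(D.group F)} (hg : g ∈ levi G i) (hx : x ∈ lowRest G i) :
    g * x * g⁻¹ ∈ lowRest G i := by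
  have hgen : ∀ (a : ℕ), a < D.nroots → (∀ k : Fin D.rank, k ≠ i → G.rc a k = 0) → ∀ (t : F) (y : ↥(D.group F)),
      y ∈ lowRest G i → (rt G a t)⁻¹ * y * rt G a t ∈ lowRest G i := by
    intro a ha hsupp t y hy
    induction hy using Subgroup.closure_induction with
    | mem y hy =>
      obtain ⟨r, s, hr, hne, rfl⟩ := hy
      by_cases hra : r = a
      · subst hra
        have e : (rt G r t)⁻¹ * rt G r s * rt G r t = rt G r s := by
          apply Subtype.ext
          show (G.xg r t)⁻¹ * G.xg r s * G.xg r t = G.xg r s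
          rw [G.xg_inv, G.xg_add, G.xg_add]; congr 1; ring
        rw [e]; exact Subgroup.subset_closure ⟨r, s, hr, hne, rfl⟩
      obtain ⟨kk, hki, hkr⟩ : ∃ k : Fin D.rank, k ≠ i ∧ G.rc r k < 0 := by
        by_contra hc
        push Not at hc
        refine hne ?_
        have hp := G.isPosRoot_neg hr
        rw [← G.neg_neg hr.1]
        congr 1
        refine G.eq_simple_of_rc_support i.2 hp fun k hk => ?_
        have h1 := hc k fun e => hk (congrArg Fin.val e)
        have h2 := G.rc_nonneg hp k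
        rw [G.rc_neg hr.1, Pi.neg_apply] at h2 ⊢
        omega
      have hneg : r ≠ D.neg a := fun e => by
        rw [e, G.rc_neg ha, Pi.neg_apply, hsupp kk hki] at hkr; omega
      obtain ⟨w, hw, he⟩ := G.exists_comm ha hr.1 hra hneg t s
      have hle : Subgroup.closure {g : GL D.Idx F | ∃ c ∈ D.commTerms a r, ∃ v, g = G.xg c.1 v} ≤
          (lowRest G (F := F) i).map (D.group F).subtype := by
        refine (Subgroup.closure_le _).2 ?_
        rintro z ⟨c, hc, v, rfl⟩
        obtain ⟨h1, h2, h3, h4⟩ := G.commTerms_spec ha hr.1 hc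
        have hck : G.rc c.1 kk < 0 := by
          rw [h4]
          simp only [Pi.add_apply, Pi.smul_apply, smul_eq_mul, hsupp kk hki, mul_zero, zero_add]
          exact mul_neg_of_pos_of_neg (by omega) hkr
        refine ⟨rt G c.1 v, Subgroup.subset_closure ⟨c.1, v, ?_, ?_, rfl⟩, rfl⟩
        · exact (G.isPosRoot_or_isNegRoot h1).resolve_left fun hp => by
            have := G.rc_nonneg hp kk; omega
        · intro e
          rw [e, G.rc_neg (G.simple_lt i.2), G.rc_simple i.2] at hck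
          simp [hki] at hck
      obtain ⟨w', hw', rfl⟩ := hle hw
      have e : (rt G a t)⁻¹ * rt G r s * rt G a t = rt G r s * w' := by
        apply Subtype.ext
        show (G.xg a t)⁻¹ * G.xg r s * G.xg a t = G.xg r s * (w' : GL D.Idx F)
        rw [mul_assoc, he, mul_assoc (G.xg a t), inv_mul_cancel_left]; rfl
      rw [e]
      exact mul_mem (Subgroup.subset_closure ⟨r, s, hr, hne, rfl⟩) hw'
    | one => simp
    | mul p q _ _ hp hq =>
      rw [show (rt G a t)⁻¹ * (p * q) * rt G a t =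
        ((rt G a t)⁻¹ * p * rt G a t) * ((rt G a t)⁻¹ * q * rt G a t) by group]
      exact mul_mem hp hq
    | inv p _ hp =>
      rw [show (rt G a t)⁻¹ * p⁻¹ * rt G a t = ((rt G a t)⁻¹ * p * rt G a t)⁻¹ by group]
      exact inv_mem hp
  have hinv : ∀ (a : ℕ) (t : F), (rt G a t)⁻¹ = rt G a (-t) := fun a t => Subtype.ext (G.xg_inv a t)
  have hs1 : ∀ k : Fin D.rank, k ≠ i → G.rc (D.simple i) k = 0 := fun k hk => by
    rw [G.rc_simple i.2]; simp [hk]
  have hs2 : ∀ k : Fin D.rank, k ≠ i → G.rc (D.neg (D.simple i)) k = 0 := fun k hk => by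
    rw [G.rc_neg (G.simple_lt i.2), Pi.neg_apply, hs1 k hk, neg_zero]
  suffices H : ∀ g ∈ levi G (F := F) i, ∀ x ∈ lowRest G i, g * x * g⁻¹ ∈ lowRest G i from H g hg x hx
  intro g hg
  induction hg using Subgroup.closure_induction'' with
  | mem g hg =>
    obtain ⟨t, rfl | rfl⟩ := hg <;> intro x hx
    · have := hgen _ (G.simple_lt i.2) hs1 (-t) x hx
      rwa [← hinv, inv_inv] at this
    · have := hgen _ (G.neg_lt (G.simple_lt i.2)) hs2 (-t) x hx
      rwa [← hinv, inv_inv] at this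
  | inv_mem g hg =>
    obtain ⟨t, rfl | rfl⟩ := hg <;> intro x hx <;> rw [inv_inv]
    · exact hgen _ (G.simple_lt i.2) hs1 t x hx
    · exact hgen _ (G.neg_lt (G.simple_lt i.2)) hs2 t x hx
  | one => simp
  | mul a b _ _ ha hb =>
    intro x hx
    rw [show a * b * x * (a * b)⁻¹ = a * (b * x * b⁻¹) * a⁻¹ by group]
    exact ha _ (hb x hx)

/-- The group is generated by `V` and the fundamental root groups. -/
theorem gen_eq_top (S : Subgroup ↥(D.group F)) (hl : lower D F ≤ S)
    (hs : ∀ i : Fin D.rank, ∀ t : F, rt G (D.simple i) t ∈ S) : S = ⊤ := by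
  have hneg : ∀ r, D.IsNegRoot r → ∀ t : F, rt G r t ∈ S := fun r hr t => hl (G.xg_mem_neg hr t)
  have hns : ∀ i : Fin D.rank, ns G (F := F) i ∈ S := fun i => by
    have h : levi G (F := F) i ≤ S := (Subgroup.closure_le _).2 (by
      rintro g ⟨t, rfl | rfl⟩
      exacts [hs i t, hneg _ (G.isNegRoot_neg (G.isPosRoot_simple i.2)) t])
    exact h (ns_mem_levi G i)
  have hpos : ∀ r, D.IsPosRoot r → ∀ t : F, rt G r t ∈ S := by
    refine G.pos_induction (fun i hi t => hs ⟨i, hi⟩ t) fun i s hi hs' h t => ?_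
    have e : rt G (D.reflectRoot i s) t =
        ns G ⟨i, hi⟩ * rt G s ((G.tab.eta i s : F) * t) * (ns G ⟨i, hi⟩)⁻¹ := by
      apply Subtype.ext
      show G.xg (D.reflectRoot i s) t =
        G.ng (D.simple i) 1 * G.xg s ((G.tab.eta i s : F) * t) * (G.ng (D.simple i) 1)⁻¹
      rw [G.ng_simple_mul_xg hi hs'.1, mul_inv_cancel_right, ← mul_assoc (G.tab.eta i s : F), G.eta_cast_sq,
        one_mul]
    rw [e]
    exact mul_mem (mul_mem (hns _) (h _)) (inv_mem (hns _))
  have hle : D.group F ≤ S.map (D.group F).subtype := G.group_le fun r hr t => by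
    rcases G.isPosRoot_or_isNegRoot hr with h | h
    · exact ⟨_, hpos r h t, rfl⟩
    · exact ⟨_, hneg r h t, rfl⟩
  refine eq_top_iff.2 fun x _ => ?_
  obtain ⟨y, hy, e⟩ := hle x.2
  exact (Subtype.ext e : y = x) ▸ hy

variable [Fintype F] {p : ℕ} [hp : Fact p.Prime] [hpF : CharP F p] {k : Type v} [Field k] [hpk : CharP k p]

theorem isPGroup_upper : IsPGroup p ↥(upper D F) := by
  classical
  obtain ⟨n, -, hn⟩ := FiniteField.card F p
  refine IsPGroup.of_card (n := (n : ℕ) * (D.nroots / 2)) ?_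
  rw [upper, Nat.card_congr (Subgroup.subgroupOfEquivOfLe G.posUnipotent_le_group).toEquiv, G.posUnipotent_eq,
    G.card_posSub G.posClosed_univ, G.card_posRoots, Nat.card_eq_fintype_card (α := F), hn, ← pow_mul]

theorem exists_opp : ∃ n : ↥(D.group F), n ∈ mono D F ∧
    ∀ r : Fin D.nroots, D.IsPosRoot r → D.IsNegRoot (pm G n r) := by
  obtain ⟨n, hn, h⟩ := G.exists_opposition (F := F)
  exact ⟨⟨n, G.monomial_le_group hn⟩, hn, h⟩

theorem conj_opp {n : ↥(D.group F)} (hn : n ∈ mono D F)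
    (h : ∀ r : Fin D.nroots, D.IsPosRoot r → D.IsNegRoot (pm G n r)) (x : ↥(D.group F)) :
    n * x * n⁻¹ ∈ lower D F ↔ x ∈ upper D F := by
  have hm := G.map_conj_opposition (show (n : GL D.Idx F) ∈ D.monomialSubgroup F from hn) h
  constructor
  · intro hx
    have hx' : (n : GL D.Idx F) * x * (n : GL D.Idx F)⁻¹ ∈ D.negUnipotent F := hx
    rw [← hm] at hx'
    obtain ⟨y, hy, e⟩ := hx'
    rw [MulEquiv.coe_toMonoidHom, MulAut.conj_apply, mul_left_inj, mul_right_inj] at e
    exact show (x : GL D.Idx F) ∈ D.posUnipotent F from e ▸ hy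
  · intro hx
    show (n : GL D.Idx F) * x * (n : GL D.Idx F)⁻¹ ∈ D.negUnipotent F
    rw [← hm]
    exact ⟨x, hx, rfl⟩

theorem isPGroup_lower : IsPGroup p ↥(lower D F) := by
  obtain ⟨n, hn, h⟩ := exists_opp G (F := F)
  refine (((isPGroup_upper G (p := p)).map (MulAut.conj n).toMonoidHom)).to_le fun x hx => ?_
  refine ⟨n⁻¹ * x * n, (conj_opp G hn h _).1 (by simpa [mul_assoc] using hx), by simp [mul_assoc]⟩

theorem tor_conj_lower (z : Fin D.rank → Fˣ) {x : ↥(D.group F)} (hx : x ∈ lower D F) :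
    tor G z * x * (tor G z)⁻¹ ∈ lower D F :=
  (Subgroup.mem_normalizer_iff.1 (G.diagonal_le_normalizer_neg (G.mem_diagonal.2 ⟨z, rfl⟩)) _).1 hx

theorem tor_conj_upper (z : Fin D.rank → Fˣ) {x : ↥(D.group F)} (hx : x ∈ upper D F) :
    tor G z * x * (tor G z)⁻¹ ∈ upper D F :=
  (Subgroup.mem_normalizer_iff.1 (G.diagonal_le_normalizer_pos (G.mem_diagonal.2 ⟨z, rfl⟩)) _).1 hx

/-! ### Weights -/

variable {V : Type w} [AddCommGroup V] [Module k V] (ρ : ↥(D.group F) →* Module.End k V)

/-- A weight vector. -/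
def HasWeight (m : V) (χ : (Fin D.rank → Fˣ) →* kˣ) (K : Finset (Fin D.rank)) : Prop :=
  m ≠ 0 ∧ IsFix ρ m ∧ HasChar G ρ m χ ∧ ∀ i, opT G ρ (ns G i) m = if i ∈ K then -m else 0

omit G in
/-- Admissible pairs. -/
def Adm (χ : (Fin D.rank → Fˣ) →* kˣ) (K : Finset (Fin D.rank)) : Prop :=
  ∀ i ∈ K, ∀ c : Fˣ, χ (Pi.mulSingle i c) = 1

theorem char_unique {v : V} (hv : v ≠ 0) {χ χ' : (Fin D.rank → Fˣ) →* kˣ} (h : HasChar G ρ v χ)
    (h' : HasChar G ρ v χ') : χ = χ' :=
  MonoidHom.ext fun z => Units.ext (smul_left_injective k hv ((h z).symm.trans (h' z)))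

include hp hpF hpk in
theorem exists_fixed_char [IsAlgClosed k] [FiniteDimensional k V] [Nontrivial V] :
    ∃ v : V, v ≠ 0 ∧ IsFix ρ v ∧ ∃ χ, HasChar G ρ v χ := by
  classical
  obtain ⟨x, hx⟩ := exists_ne (0 : V)
  obtain ⟨v₀, hv₀, hfix₀⟩ := Modular.exists_fixed (isPGroup_upper G (F := F) (p := p))
    (ρ.comp (upper D F).subtype) hx
  let P : Submodule k V → Prop := fun W => W ≠ ⊥ ∧ (∀ w ∈ W, IsFix ρ w) ∧ ∀ z, ∀ w ∈ W, ρ (tor G z) w ∈ W
  let Fx : Submodule k V :=
    { carrier := {w | IsFix ρ w}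
      add_mem' := fun ha hb u hu => by rw [map_add, ha u hu, hb u hu]
      zero_mem' := fun u _ => map_zero _
      smul_mem' := fun c w hw u hu => by rw [map_smul, hw u hu] }
  have hP : P Fx := by
    refine ⟨fun h => hv₀ ?_, fun w hw => hw, fun z w hw u hu => ?_⟩
    · have : v₀ ∈ Fx := fun u hu => hfix₀ ⟨u, hu⟩
      rwa [h, Submodule.mem_bot] at this
    · have h1 := tor_conj_upper G z⁻¹ hu
      rw [map_inv, inv_inv] at h1
      rw [← Module.End.mul_apply, ← map_mul,
        show u * tor G z = tor G z * ((tor G z)⁻¹ * u * tor G z) by group, map_mul, Module.End.mul_apply, hw _ h1]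
  have hex : ∃ n, ∃ W, P W ∧ Module.finrank k W = n := ⟨_, Fx, hP, rfl⟩
  obtain ⟨W, ⟨hWne, hWfix, hWinv⟩, hWn⟩ := Nat.find_spec hex
  have hsc : ∀ z, ∃ c : k, ∀ w ∈ W, ρ (tor G z) w = c • w := by
    intro z
    haveI : Nontrivial W := Submodule.nontrivial_iff_ne_bot.2 hWne
    obtain ⟨c, hc⟩ := Module.End.exists_eigenvalue ((ρ (tor G z)).restrict (hWinv z))
    refine ⟨c, fun w hw => ?_⟩
    obtain ⟨e, he, he0⟩ := hc.exists_hasEigenvector
    rw [Module.End.mem_eigenspace_iff] at he
    have he' : ρ (tor G z) e = c • (e : V) := congrArg Subtype.val he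
    let W' : Submodule k V := W ⊓ Module.End.eigenspace (ρ (tor G z)) c
    have hW' : P W' := by
      refine ⟨fun h => he0 (Subtype.ext ?_), fun w hw => hWfix w hw.1, fun z' w hw => ⟨hWinv z' w hw.1, ?_⟩⟩
      · have : (e : V) ∈ W' := ⟨e.2, Module.End.mem_eigenspace_iff.2 he'⟩
        rwa [h, Submodule.mem_bot] at this
      · refine Module.End.mem_eigenspace_iff.2 ?_
        rw [← Module.End.mul_apply, ← map_mul, ← map_mul, mul_comm, map_mul, map_mul, Module.End.mul_apply,
          Module.End.mem_eigenspace_iff.1 hw.2, map_smul]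
    have heq : W' = W := Submodule.eq_of_le_of_finrank_le inf_le_left
      (hWn ▸ Nat.find_min' hex ⟨W', hW', rfl⟩)
    exact Module.End.mem_eigenspace_iff.1 ((heq.symm ▸ hw : w ∈ W').2)
  choose c hc using hsc
  obtain ⟨v, hvW, hv⟩ := (Submodule.ne_bot_iff W).1 hWne
  have hmul : ∀ z z', c (z * z') = c z * c z' := fun z z' => smul_left_injective k hv (by
    show c (z * z') • v = (c z * c z') • v
    rw [← hc _ v hvW, map_mul, map_mul, Module.End.mul_apply, hc z' v hvW, map_smul, hc z v hvW, smul_smul,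
      mul_comm])
  have hone : c 1 = 1 := smul_left_injective k hv (by
    show c 1 • v = (1 : k) • v
    rw [← hc _ v hvW, map_one, map_one, one_smul]; rfl)
  let χ : (Fin D.rank → Fˣ) →* kˣ :=
    MonoidHom.toHomUnits { toFun := c, map_one' := hone, map_mul' := hmul }
  exact ⟨v, hv, hWfix v hvW, χ, fun z => hc z v hvW⟩

variable (hinj : Function.Injective (G.torus (F := F)))

/-- Conjugation of the parameters of the torus by an element of `N`. -/
noncomputable def conjZ {n : ↥(D.group F)} (hn : n ∈ mono D F) :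
    (Fin D.rank → Fˣ) →* (Fin D.rank → Fˣ) :=
  have h : ∀ z, ∃ w, n⁻¹ * tor G z * n = tor G w := fun z => by
    obtain ⟨w, hw⟩ := G.mem_diagonal.1 (G.diagonal_normalized
      (inv_mem (show (n : GL D.Idx F) ∈ D.monomialSubgroup F from hn))
      (G.mem_diagonal.2 ⟨z, rfl⟩ : G.torus z ∈ D.diagonalSubgroup F))
    rw [inv_inv] at hw
    exact ⟨w, Subtype.ext hw⟩
  have hinj' : Function.Injective (tor G (F := F)) := fun a b e => hinj (congrArg Subtype.val e)
  MonoidHom.mk' (fun z => (h z).choose) fun a b => hinj' (by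
    rw [← (h (a * b)).choose_spec, map_mul (tor G) (h a).choose, ← (h a).choose_spec, ← (h b).choose_spec,
      map_mul]
    group)

omit hpF hp in
theorem conjZ_spec {n : ↥(D.group F)} (hn : n ∈ mono D F) (z : Fin D.rank → Fˣ) :
    n⁻¹ * tor G z * n = tor G (conjZ G hinj hn z) := by
  rw [conjZ, MonoidHom.mk'_apply]
  exact Exists.choose_spec (p := fun w => n⁻¹ * tor G z * n = tor G w) _

theorem conjZ_eq {n : ↥(D.group F)} (hn : n ∈ mono D F) {z w : Fin D.rank → Fˣ}
    (h : n⁻¹ * tor G z * n = tor G w) : conjZ G hinj hn z = w :=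
  hinj (congrArg Subtype.val ((conjZ_spec G hinj hn z).symm.trans h))

theorem conjZ_mul {a b : ↥(D.group F)} (ha : a ∈ mono D F) (hb : b ∈ mono D F) (z : Fin D.rank → Fˣ) :
    conjZ G hinj (mul_mem ha hb) z = conjZ G hinj hb (conjZ G hinj ha z) := by
  refine conjZ_eq G hinj _ ?_
  rw [← conjZ_spec G hinj hb, ← conjZ_spec G hinj ha]; group

theorem hasChar_moved {n : ↥(D.group F)} (hn : n ∈ mono D F) {v : V} {χ : (Fin D.rank → Fˣ) →* kˣ}
    (hv : HasChar G ρ v χ) : HasChar G ρ (opT G ρ n v) (χ.comp (conjZ G hinj hn)) :=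
  hasChar_opT G ρ hn hv fun z => ⟨_, conjZ_spec G hinj hn z, rfl⟩

open scoped Classical in
include hp hpF hpk hinj in
/-- Below a descent `T_i` acts by `-1` or `0`. -/
theorem opT_down {a : ↥(D.group F)} (ha : a ∈ mono D F) (i : Fin D.rank)
    (hi : (G.simpleF i : ℕ) ∈ lSet G a) {v : V} (hv : IsFix ρ v) {χ : (Fin D.rank → Fˣ) →* kˣ}
    (hχ : HasChar G ρ v χ) :
    opT G ρ (ns G i) (opT G ρ a v) =
      if ∀ c, χ (conjZ G hinj ha (Pi.mulSingle i c)) = 1 then -opT G ρ a v else 0 := by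
  classical
  have hn := ns_mem G (F := F) i
  set a' := (ns G i)⁻¹ * a with ha'def
  have ha' : a' ∈ mono D F := mul_mem (inv_mem hn) ha
  have hpa : ∀ r, (pm G a')⁻¹ r = (pm G a)⁻¹ (G.sPerm i r) := fun r => by
    rw [ha'def, pm_mul G (inv_mem hn) ha, pm_inv G hn, pm_ns, mul_inv_rev, inv_inv, Equiv.Perm.mul_apply]
  have hcond : ∀ r : Fin D.nroots, (r : ℕ) ∈ lSet G a' → D.IsPosRoot (pm G (ns G (F := F) i) r) := by
    intro r hr
    obtain ⟨hrp, hrn⟩ := (mem_lSet G ha').1 hr
    rw [pm_ns, G.sPerm_apply]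
    refine G.isPosRoot_reflect i.2 hrp fun e => ?_
    rw [show r = G.simpleF i from Fin.ext e, hpa, G.sPerm_simple,
      show (pm G a)⁻¹ (G.negF (G.simpleF i)) = G.negF ((pm G a)⁻¹ (G.simpleF i)) by
        rw [← pm_inv G ha]; exact G.perm_negF (inv_mem ha) _] at hrn
    exact G.not_isNegRoot ((G.isNegRoot_negF).1 hrn) ((mem_lSet G ha).1 hi).2
  have e : opT G ρ a v = opT G ρ (ns G i) (opT G ρ a' v) := by
    rw [opT_comp G ρ hn ha' hcond, ha'def, mul_inv_cancel_left]
  rw [e, opT_sq G ρ p i (isFix_opT G ρ ha' hv) (hasChar_moved G ρ hinj ha' hχ), ← e]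
  have key : ∀ c, (χ.comp (conjZ G hinj ha')) (Pi.mulSingle i c) =
      χ (conjZ G hinj ha (Pi.mulSingle i c⁻¹)) := by
    intro c
    show χ (conjZ G hinj ha' (Pi.mulSingle i c)) = _
    congr 1
    refine (conjZ_eq G hinj ha ?_).symm
    rw [← conjZ_spec G hinj ha', ha'def, mul_inv_rev, inv_inv,
      show tor G (Pi.mulSingle i c⁻¹) = (ns G i)⁻¹ * tor G (Pi.mulSingle i c) * ns G (F := F) i from
        (tor_conj_ns_single G i c).symm]
    have hsq : ns G i * ns G i * tor G (Pi.mulSingle i c) =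
        tor G (Pi.mulSingle i c) * (ns G (F := F) i * ns G i) := by
      rw [ns_mul_ns, ← map_mul, ← map_mul, mul_comm]
    calc a⁻¹ * ((ns G i)⁻¹ * tor G (Pi.mulSingle i c) * ns G i) * a
        = a⁻¹ * ((ns G i)⁻¹ * (tor G (Pi.mulSingle i c) * (ns G i * ns G i)) * (ns G i)⁻¹) * a := by group
      _ = a⁻¹ * ns G i * tor G (Pi.mulSingle i c) * ((ns G i)⁻¹ * a) := by rw [← hsq]; group
  simp only [key]
  by_cases h : ∀ c, χ (conjZ G hinj ha (Pi.mulSingle i c)) = 1
  · rw [if_pos h, if_pos fun c => h c⁻¹]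
  · rw [if_neg h, if_neg fun h' => h fun c => by simpa using h' c⁻¹]

theorem simple_notMem_card {a : ↥(D.group F)} (ha : a ∈ mono D F) (i : Fin D.rank)
    (hi : (G.simpleF i : ℕ) ∉ lSet G a) :
    (∀ r : Fin D.nroots, (r : ℕ) ∈ lSet G a → D.IsPosRoot (pm G (ns G (F := F) i) r)) ∧
      Set.ncard {r : Fin D.nroots | (r : ℕ) ∈ lSet G a} <
        Set.ncard {r : Fin D.nroots | (r : ℕ) ∈ lSet G (ns G i * a)} := by
  have hn := ns_mem G (F := F) i
  have hpos : ∀ r : Fin D.nroots, (r : ℕ) ∈ lSet G a → D.IsPosRoot (pm G (ns G (F := F) i) r) := by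
    intro r hr
    rw [pm_ns, G.sPerm_apply]
    exact G.isPosRoot_reflect i.2 ((mem_lSet G ha).1 hr).1 fun e => hi (by
      rw [show G.simpleF i = r from Fin.ext e.symm]; exact hr)
  refine ⟨hpos, ?_⟩
  have hs : ∀ r, (pm G (ns G i * a))⁻¹ r = (pm G a)⁻¹ (G.sPerm i r) := fun r => by
    rw [pm_mul G hn ha, mul_inv_rev, Equiv.Perm.mul_apply, pm_ns,
      show (G.sPerm i)⁻¹ = G.sPerm i from inv_eq_of_mul_eq_one_left (G.sPerm_mul_self i)]
  rw [← Set.ncard_image_of_injective _ (G.sPerm i).injective]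
  refine Set.ncard_lt_ncard ((Set.ssubset_iff_of_subset ?_).2 ⟨G.simpleF i, ?_, ?_⟩) (Set.toFinite _)
  · rintro _ ⟨r, hr, rfl⟩
    refine (mem_lSet G (mul_mem hn ha)).2 ⟨by simpa [pm_ns] using hpos r hr, ?_⟩
    rw [hs, ← Equiv.Perm.mul_apply (G.sPerm i), G.sPerm_mul_self, Equiv.Perm.one_apply]
    exact ((mem_lSet G ha).1 hr).2
  · refine (mem_lSet G (mul_mem hn ha)).2 ⟨G.isPosRoot_simple i.2, ?_⟩
    rw [hs, G.sPerm_simple, show (pm G a)⁻¹ (G.negF (G.simpleF i)) = G.negF ((pm G a)⁻¹ (G.simpleF i)) by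
      rw [← pm_inv G ha]; exact G.perm_negF (inv_mem ha) _]
    exact G.isNegRoot_neg ((G.isPosRoot_iff_not_neg (Fin.isLt _)).2 fun h =>
      hi ((mem_lSet G ha).2 ⟨G.isPosRoot_simple i.2, h⟩))
  · rintro ⟨r, hr, e⟩
    have h1 : D.IsPosRoot (G.sPerm i r) := by simpa [pm_ns] using hpos r hr
    have h2 : r = G.sPerm i (G.simpleF i) := by
      rw [← e, ← Equiv.Perm.mul_apply, G.sPerm_mul_self, Equiv.Perm.one_apply]
    rw [h2, G.sPerm_simple] at hr
    exact G.not_isNegRoot ((mem_lSet G ha).1 hr).1 (G.isNegRoot_neg (G.isPosRoot_simple i.2))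

include hinj hp hpF hpk in
/-- Every module has a weight vector. -/
theorem exists_weight [IsAlgClosed k] [FiniteDimensional k V] [Nontrivial V] :
    ∃ m χ K, Adm χ K ∧ HasWeight G ρ m χ K := by
  classical
  obtain ⟨v, hv, hfix, χ, hχ⟩ := exists_fixed_char G ρ (p := p)
  let S : Finset ↥(D.group F) := (Set.toFinite {n | n ∈ mono D F ∧ opT G ρ n v ≠ 0}).toFinset
  have h1 : (1 : ↥(D.group F)) ∈ S := by
    rw [Set.Finite.mem_toFinset]
    refine ⟨one_mem _, ?_⟩
    have he : tSet G (1 : ↥(D.group F)) = {1} := by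
      ext x
      rw [mem_tSet, Finset.mem_singleton]
      refine ⟨fun hx => ?_, fun hx => by subst hx; exact one_mem _⟩
      refine pS_disjoint G (closed_lSet G (one_mem _)) (closed_lSet G (one_mem _)) (fun r hr h _ => ?_) hx hx
      have := ((mem_lSet G (one_mem _) (r := ⟨r, hr.1⟩)).1 h).2
      rw [show pm G (1 : ↥(D.group F)) = 1 from G.perm_eq G.monRel_one, inv_one, Equiv.Perm.one_apply] at this
      exact G.not_isNegRoot hr this
    rw [opT, he, Finset.sum_singleton, mul_one, map_one]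
    exact hv
  obtain ⟨n, hnS, hmax⟩ := S.exists_max_image
    (fun n => Set.ncard {r : Fin D.nroots | (r : ℕ) ∈ lSet G n}) ⟨1, h1⟩
  obtain ⟨hn, hne⟩ := (Set.Finite.mem_toFinset _).1 hnS
  set m := opT G ρ n v
  have hchar := hasChar_moved G ρ hinj hn hχ
  have hcase : ∀ i, opT G ρ (ns G i) m = if (∀ c, (χ.comp (conjZ G hinj hn)) (Pi.mulSingle i c) = 1) ∧
      (G.simpleF i : ℕ) ∈ lSet G n then -m else 0 := by
    intro i
    by_cases hi : (G.simpleF i : ℕ) ∈ lSet G n
    · rw [opT_down G ρ hinj hn i hi hfix hχ]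
      simp only [hi, and_true]
      rfl
    · simp only [hi, and_false, if_false]
      obtain ⟨hpos, hlt⟩ := simple_notMem_card G hn i hi
      rw [opT_comp G ρ (ns_mem G i) hn hpos]
      by_contra hne'
      have := hmax _ ((Set.Finite.mem_toFinset _).2 ⟨mul_mem (ns_mem G i) hn, hne'⟩)
      omega
  refine ⟨m, χ.comp (conjZ G hinj hn), Finset.univ.filter fun i => (∀ c, (χ.comp (conjZ G hinj hn))
    (Pi.mulSingle i c) = 1) ∧ (G.simpleF i : ℕ) ∈ lSet G n, fun i hi => (Finset.mem_filter.1 hi).2.1,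
    hne, isFix_opT G ρ hn hfix, hchar, fun i => ?_⟩
  rw [hcase i]
  simp only [Finset.mem_filter, Finset.mem_univ, true_and]

/-- The span of the `V`-orbit. -/
def lowSpan (m : V) : Submodule k V := Submodule.span k (Set.range fun y : lower D F => ρ y m)

omit G [Fintype F] in
theorem self_mem_lowSpan (m : V) : m ∈ lowSpan ρ m :=
  Submodule.subset_span ⟨1, by simp⟩

/-- A weight vector generates with `V` alone. -/
theorem lowSpan_invariant {m : V} {χ : (Fin D.rank → Fˣ) →* kˣ} {K : Finset (Fin D.rank)}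
    (hw : HasWeight G ρ m χ K) : ∀ g : ↥(D.group F), ∀ w ∈ lowSpan ρ m, ρ g w ∈ lowSpan ρ m := by
  classical
  obtain ⟨-, hfix, hχ, hT⟩ := hw
  set W := lowSpan ρ m
  have hlow : ∀ y ∈ lower D F, ∀ w ∈ W, ρ y w ∈ W := by
    intro y hy w hw
    induction hw using Submodule.span_induction with
    | mem w hw =>
      obtain ⟨y', rfl⟩ := hw
      exact Submodule.subset_span ⟨⟨y * y', mul_mem hy y'.2⟩, by simp⟩
    | zero => rw [map_zero]; exact W.zero_mem
    | add a b _ _ ha hb => rw [map_add]; exact W.add_mem ha hb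
    | smul c a _ ha => rw [map_smul]; exact W.smul_mem c ha
  have hmul : ∀ a b : ↥(D.group F), ∀ w, ρ (a * b) w = ρ a (ρ b w) := fun a b w => by
    rw [map_mul, Module.End.mul_apply]
  -- the rank one part
  have hlevi : ∀ i : Fin D.rank, ∀ g ∈ levi G (F := F) i, ρ g m ∈ W := by
    intro i
    let S1 : Submodule k V := Submodule.span k (Set.range fun s : F => ρ (rt G (D.neg (D.simple i)) s) m)
    have hS1 : S1 ≤ W := by
      refine Submodule.span_le.2 ?_
      rintro _ ⟨s, rfl⟩
      exact hlow _ (G.xg_mem_neg (G.isNegRoot_neg (G.isPosRoot_simple i.2)) s) m (self_mem_lowSpan ρ m)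
    have hm1 : m ∈ S1 := Submodule.subset_span ⟨0, by
      simp [show rt G (F := F) (D.neg (D.simple i)) 0 = 1 from Subtype.ext (G.xg_zero _)]⟩
    have hxn : ∀ a : F, a ≠ 0 → ρ (rt G (D.simple i) a * ns G i) m ∈ S1 := by
      intro a ha
      have e := rt_neg_apply G ρ i (Units.mk0 a ha) hfix hχ
      rw [Units.val_mk0] at e
      rw [← inv_smul_smul₀ (Units.ne_zero (χ (Pi.mulSingle i (-Units.mk0 a ha)⁻¹)))
        (ρ (rt G (D.simple i) a * ns G i) m), ← e]
      exact S1.smul_mem _ (Submodule.subset_span ⟨a⁻¹, rfl⟩)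
    have hx0 : rt G (F := F) (D.simple i) 0 = 1 := Subtype.ext (G.xg_zero _)
    have hn : ρ (ns G i) m ∈ S1 := by
      have e := hT i
      rw [opT_ns, ← Finset.add_sum_erase _ _ (Finset.mem_univ (0 : F)), hx0, one_mul] at e
      rw [eq_sub_of_add_eq e]
      refine S1.sub_mem ?_ (S1.sum_mem fun a ha => hxn a (Finset.mem_erase.1 ha).1)
      split_ifs
      exacts [S1.neg_mem hm1, S1.zero_mem]
    have hall : ∀ a : F, ρ (rt G (D.simple i) a * ns G i) m ∈ S1 := fun a => by
      by_cases ha : a = 0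
      · rw [ha, hx0, one_mul]; exact hn
      · exact hxn a ha
    have hinvS : ∀ g ∈ levi G (F := F) i, ∀ w ∈ S1, ρ g w ∈ S1 := by
      intro g hg
      have hgen : ∀ (t : F), (∀ w ∈ S1, ρ (rt G (D.simple i) t) w ∈ S1) ∧
          ∀ w ∈ S1, ρ (rt G (D.neg (D.simple i)) t) w ∈ S1 := by
        intro t
        constructor <;> intro w hw <;> induction hw using Submodule.span_induction with
        | zero => rw [map_zero]; exact S1.zero_mem
        | add a b _ _ ha hb => rw [map_add]; exact S1.add_mem ha hb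
        | smul c a _ ha => rw [map_smul]; exact S1.smul_mem c ha
        | mem w hw => ?_
        · obtain ⟨s, rfl⟩ := hw
          dsimp only
          by_cases hs : s = 0
          · subst hs
            rw [show rt G (F := F) (D.neg (D.simple i)) 0 = 1 from Subtype.ext (G.xg_zero _), map_one,
              Module.End.one_apply, hfix _ (G.xg_mem_pos (G.isPosRoot_simple i.2) t)]
            exact hm1
          · have e := rt_neg_apply G ρ i (Units.mk0 s⁻¹ (inv_ne_zero hs)) hfix hχ
            rw [Units.val_mk0, inv_inv] at e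
            rw [e, map_smul, ← hmul, ← mul_assoc,
              show rt G (D.simple i) t * rt G (D.simple i) s⁻¹ = rt G (D.simple i) (t + s⁻¹) from
                Subtype.ext (G.xg_add _ t s⁻¹)]
            exact S1.smul_mem _ (hall _)
        · obtain ⟨s, rfl⟩ := hw
          dsimp only
          rw [← hmul, show rt G (D.neg (D.simple i)) t * rt G (D.neg (D.simple i)) s =
            rt G (D.neg (D.simple i)) (t + s) from Subtype.ext (G.xg_add _ t s)]
          exact Submodule.subset_span ⟨t + s, rfl⟩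
      induction hg using Subgroup.closure_induction'' with
      | mem g hg => obtain ⟨t, rfl | rfl⟩ := hg; exacts [(hgen t).1, (hgen t).2]
      | inv_mem g hg =>
        obtain ⟨t, rfl | rfl⟩ := hg
        · rw [show (rt G (D.simple i) t)⁻¹ = rt G (D.simple i) (-t) from Subtype.ext (G.xg_inv _ t)]
          exact (hgen (-t)).1
        · rw [show (rt G (D.neg (D.simple i)) t)⁻¹ = rt G (D.neg (D.simple i)) (-t) from
            Subtype.ext (G.xg_inv _ t)]
          exact (hgen (-t)).2
      | one => intro w hw; rwa [map_one]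
      | mul a b _ _ ha hb => intro w hw; rw [hmul]; exact ha _ (hb w hw)
    exact fun g hg => hS1 (hinvS g hg m hm1)
  have hfund : ∀ y ∈ lower D F, ∀ i : Fin D.rank, ∀ g ∈ levi G (F := F) i, ρ (g * y) m ∈ W := by
    intro y hy
    rw [lower_eq G] at hy
    induction hy using Subgroup.closure_induction_left with
    | one => intro i g hg; rw [mul_one]; exact hlevi i g hg
    | mul_left x hx y _ ih =>
      intro i g hg
      obtain ⟨r, s, hr, rfl⟩ := hx
      by_cases hri : r = D.neg (D.simple i)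
      · subst hri; rw [← mul_assoc]; exact ih i _ (mul_mem hg (mem_levi_neg G i s))
      · rw [show g * (rt G r s * y) = (g * rt G r s * g⁻¹) * (g * y) by group, hmul]
        exact hlow _ (lowRest_le G i (conj_lowRest G i hg (Subgroup.subset_closure ⟨r, s, hr, hri, rfl⟩))) _
          (ih i g hg)
    | inv_mul_cancel x hx y _ ih =>
      intro i g hg
      obtain ⟨r, s, hr, rfl⟩ := hx
      rw [show (rt G r s)⁻¹ = rt G r (-s) from Subtype.ext (G.xg_inv _ s)]
      by_cases hri : r = D.neg (D.simple i)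
      · subst hri; rw [← mul_assoc]; exact ih i _ (mul_mem hg (mem_levi_neg G i _))
      · rw [show g * (rt G r (-s) * y) = (g * rt G r (-s) * g⁻¹) * (g * y) by group, hmul]
        exact hlow _ (lowRest_le G i (conj_lowRest G i hg (Subgroup.subset_closure ⟨r, -s, hr, hri, rfl⟩))) _
          (ih i g hg)
  have hgen : ∀ i : Fin D.rank, ∀ t : F, ∀ w ∈ W, ρ (rt G (D.simple i) t) w ∈ W := by
    intro i t w hw
    induction hw using Submodule.span_induction with
    | mem w hw =>
      obtain ⟨y, rfl⟩ := hw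
      rw [← hmul]; exact hfund y y.2 i _ (mem_levi_pos G i t)
    | zero => rw [map_zero]; exact W.zero_mem
    | add a b _ _ ha hb => rw [map_add]; exact W.add_mem ha hb
    | smul c a _ ha => rw [map_smul]; exact W.smul_mem c ha
  let St : Submonoid ↥(D.group F) :=
    { carrier := {g | ∀ w ∈ W, ρ g w ∈ W}
      one_mem' := fun w hw => by rwa [map_one]
      mul_mem' := fun {a b} ha hb w hw => by rw [hmul]; exact ha _ (hb w hw) }
  let SG : Subgroup ↥(D.group F) :=
    { St with
      inv_mem' := fun {a} ha => by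
        have : a⁻¹ ∈ Submonoid.powers a := by
          rw [mem_powers_iff_mem_zpowers]
          exact inv_mem (Subgroup.mem_zpowers a)
        obtain ⟨j, hj⟩ := this
        have := pow_mem (show a ∈ St from ha) j
        exact hj ▸ this }
  have htop := gen_eq_top G SG (fun y hy => hlow y hy) fun i t => hgen i t
  intro g
  exact (htop ▸ Subgroup.mem_top g : g ∈ SG)

include hp hpF hpk in
/-- The augmentation functional vanishes on the invariant subspaces avoiding `m`. -/
theorem exists_aug (m : V) (P : Submodule k V) (hm : m ∉ P)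
    (hinv : ∀ y ∈ lower D F, ∀ w ∈ P, ρ y w ∈ P) :
    ∃ f : Module.Dual k V, (∀ y : lower D F, f (ρ y m) = 1) ∧ ∀ w ∈ P, w ∈ lowSpan ρ m → f w = 0 := by
  classical
  let σ : lower D F →* Module.End k (V ⧸ P) :=
    { toFun := fun y => P.mapQ P (ρ y) fun w hw => hinv y y.2 w hw
      map_one' := Submodule.linearMap_qext _ (LinearMap.ext fun x => by simp)
      map_mul' := fun a b => Submodule.linearMap_qext _ (LinearMap.ext fun x => by simp) }
  let X := Submodule.span k (Set.range fun y => σ y (P.mkQ m))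
  have hX : ∀ y, ∀ x ∈ X, σ y x ∈ X := by
    intro y x hx
    induction hx using Submodule.span_induction with
    | mem x hx => obtain ⟨y', rfl⟩ := hx; exact Submodule.subset_span ⟨y * y', by simp⟩
    | zero => rw [map_zero]; exact X.zero_mem
    | add a b _ _ ha hb => rw [map_add]; exact X.add_mem ha hb
    | smul c a _ ha => rw [map_smul]; exact X.smul_mem c ha
  let σX : lower D F →* Module.End k X :=
    { toFun := fun y => (σ y).restrict (hX y)
      map_one' := LinearMap.ext fun x => Subtype.ext (by simp)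
      map_mul' := fun a b => LinearMap.ext fun x => Subtype.ext (by simp) }
  have hm0 : P.mkQ m ≠ 0 := fun h => hm ((Submodule.Quotient.mk_eq_zero P).1 h)
  have hmX : P.mkQ m ∈ X := Submodule.subset_span ⟨1, by simp⟩
  obtain ⟨f, hf, hfix⟩ := Modular.exists_invariant_functional (isPGroup_lower G (F := F) (p := p)) σX
    (x := (⟨_, hmX⟩ : X)) fun h => hm0 (congrArg Subtype.val h)
  obtain ⟨f', hf'⟩ := LinearMap.exists_extend f
  have hf'X : ∀ x : X, f' (x : V ⧸ P) = f x := fun x => LinearMap.congr_fun hf' x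
  have hc : f ⟨_, hmX⟩ ≠ 0 := by
    intro h0
    refine hf (LinearMap.ext fun x => ?_)
    obtain ⟨x, hx⟩ := x
    induction hx using Submodule.span_induction with
    | mem x hx =>
      obtain ⟨y, rfl⟩ := hx
      have := hfix y ⟨_, hmX⟩
      rw [h0] at this
      exact this
    | zero => exact map_zero f
    | add a b ha hb iha ihb =>
      rw [show (⟨a + b, X.add_mem ha hb⟩ : X) = ⟨a, ha⟩ + ⟨b, hb⟩ from rfl, map_add, iha, ihb]; exact add_zero _
    | smul c a ha iha =>
      rw [show (⟨c • a, X.smul_mem c ha⟩ : X) = c • ⟨a, ha⟩ from rfl, map_smul, iha]; exact smul_zero _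
  refine ⟨(f ⟨_, hmX⟩)⁻¹ • (f' ∘ₗ P.mkQ), fun y => ?_, fun w hw _ => ?_⟩
  · have e : f' (P.mkQ (ρ y m)) = f ⟨_, hmX⟩ := by
      rw [show P.mkQ (ρ y m) = ((σX y ⟨_, hmX⟩ : X) : V ⧸ P) from rfl, hf'X, hfix]
    rw [LinearMap.smul_apply, LinearMap.comp_apply, e, smul_eq_mul, inv_mul_cancel₀ hc]
  · rw [LinearMap.smul_apply, LinearMap.comp_apply, show P.mkQ w = 0 from (Submodule.Quotient.mk_eq_zero P).2 hw,
      map_zero, smul_zero]

include hp hpF hpk in
/-- Modules with a common weight have the same trace. -/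
theorem trace_eq_of_weight [FiniteDimensional k V] {W : Type w} [AddCommGroup W] [Module k W]
    [FiniteDimensional k W] (σ : ↥(D.group F) →* Module.End k W) (hρ : IsIrred ρ) (hσ : IsIrred σ) {m : V}
    {m' : W} {χ : (Fin D.rank → Fˣ) →* kˣ} {K : Finset (Fin D.rank)} (h : HasWeight G ρ m χ K)
    (h' : HasWeight G σ m' χ K) (g : ↥(D.group F)) :
    LinearMap.trace k V (ρ g) = LinearMap.trace k W (σ g) := by
  let π : ↥(D.group F) →* Module.End k (V × W) :=
    { toFun := fun g => (ρ g).prodMap (σ g)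
      map_one' := by ext <;> simp
      map_mul' := fun a b => by ext <;> simp }
  have hpi : ∀ g x, π g x = (ρ g x.1, σ g x.2) := fun g x => rfl
  have hw : HasWeight G π (m, m') χ K := by
    refine ⟨fun e => h.1 (congrArg Prod.fst e), fun u hu => ?_, fun z => ?_, fun i => ?_⟩
    · rw [hpi, h.2.1 u hu, h'.2.1 u hu]
    · rw [hpi, h.2.2.1 z, h'.2.2.1 z]; rfl
    · refine Prod.ext ?_ ?_
      · have e := opT_map G π ρ (LinearMap.fst k V W) (fun g x => rfl) (ns G i) (m, m')
        rw [LinearMap.fst_apply, LinearMap.fst_apply] at e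
        rw [e, h.2.2.2 i]; split_ifs <;> rfl
      · have e := opT_map G π σ (LinearMap.snd k V W) (fun g x => rfl) (ns G i) (m, m')
        rw [LinearMap.snd_apply, LinearMap.snd_apply] at e
        rw [e, h'.2.2.2 i]; split_ifs <;> rfl
  set M := lowSpan π (m, m') with hM
  have hMinv := lowSpan_invariant G π hw
  have hmM : (m, m') ∈ M := self_mem_lowSpan π _
  let P := M ⊓ LinearMap.ker (LinearMap.snd k V W)
  let P' := M ⊓ LinearMap.ker (LinearMap.fst k V W)
  have hPinv : ∀ g, ∀ x ∈ P, π g x ∈ P := fun g x hx => ⟨hMinv g x hx.1, by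
    show σ g x.2 = 0
    rw [show x.2 = 0 from hx.2, map_zero]⟩
  have hP'inv : ∀ g, ∀ x ∈ P', π g x ∈ P' := fun g x hx => ⟨hMinv g x hx.1, by
    show ρ g x.1 = 0
    rw [show x.1 = 0 from hx.2, map_zero]⟩
  obtain ⟨f, hf1, hf0⟩ := exists_aug G π (p := p) (m, m') P (fun hm => h'.1 hm.2) fun y _ x hx => hPinv y x hx
  obtain ⟨f', hf1', hf0'⟩ := exists_aug G π (p := p) (m, m') P' (fun hm => h.1 hm.2) fun y _ x hx => hP'inv y x hx
  have hff : ∀ x ∈ M, f x = f' x := fun x hx => LinearMap.eqOn_span (by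
    rintro _ ⟨y, rfl⟩; exact (hf1 y).trans (hf1' y).symm) hx
  have hfm : f (m, m') = 1 := by simpa using hf1 1
  -- both projections of `M` are isomorphisms
  have hP : P = ⊥ := by
    rcases hρ.2 (P.map (LinearMap.fst k V W)) (by
      rintro g _ ⟨x, hx, rfl⟩; exact ⟨_, hPinv g x hx, rfl⟩) with hb | ht
    · refine (Submodule.eq_bot_iff _).2 fun x hx => Prod.ext ?_ hx.2
      exact (Submodule.eq_bot_iff _).1 hb _ ⟨x, hx, rfl⟩
    · obtain ⟨x, hx, hxm⟩ := (ht ▸ Submodule.mem_top : m ∈ P.map (LinearMap.fst k V W))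
      have hy : (m, m') - x ∈ P' := ⟨M.sub_mem hmM hx.1, by
        show m - x.1 = 0
        rw [show x.1 = m from hxm, sub_self]⟩
      have h1 := hff _ (M.sub_mem hmM hx.1)
      rw [map_sub, hfm, hf0 x hx hx.1, hf0' _ hy hy.1, sub_zero] at h1
      exact absurd h1 one_ne_zero
  have hP' : P' = ⊥ := by
    rcases hσ.2 (P'.map (LinearMap.snd k V W)) (by
      rintro g _ ⟨x, hx, rfl⟩; exact ⟨_, hP'inv g x hx, rfl⟩) with hb | ht
    · refine (Submodule.eq_bot_iff _).2 fun x hx => Prod.ext hx.2 ?_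
      exact (Submodule.eq_bot_iff _).1 hb _ ⟨x, hx, rfl⟩
    · obtain ⟨x, hx, hxm⟩ := (ht ▸ Submodule.mem_top : m' ∈ P'.map (LinearMap.snd k V W))
      have hy : (m, m') - x ∈ P := ⟨M.sub_mem hmM hx.1, by
        show m' - x.2 = 0
        rw [show x.2 = m' from hxm, sub_self]⟩
      have h1 := hff _ (M.sub_mem hmM hx.1)
      have e : f (m, m') - f x = 1 := by rw [hfm, hff x hx.1, hf0' x hx hx.1, sub_zero]
      rw [← map_sub, hf0 _ hy hy.1] at e
      exact absurd e zero_ne_one
  let a : M →ₗ[k] V := (LinearMap.fst k V W).comp M.subtype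
  let b : M →ₗ[k] W := (LinearMap.snd k V W).comp M.subtype
  have ha : Function.Bijective a := by
    refine ⟨(injective_iff_map_eq_zero a).2 fun x hx => Subtype.ext ?_, fun v => ?_⟩
    · exact (Submodule.eq_bot_iff _).1 hP' _ ⟨x.2, hx⟩
    · rcases hρ.2 (M.map (LinearMap.fst k V W)) (by
        rintro g _ ⟨x, hx, rfl⟩; exact ⟨_, hMinv g x hx, rfl⟩) with hb | ht
      · exact absurd ((Submodule.eq_bot_iff _).1 hb _ ⟨_, hmM, rfl⟩) h.1
      · obtain ⟨x, hx, e⟩ := (ht ▸ Submodule.mem_top : v ∈ M.map (LinearMap.fst k V W))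
        exact ⟨⟨x, hx⟩, e⟩
  have hb : Function.Bijective b := by
    refine ⟨(injective_iff_map_eq_zero b).2 fun x hx => Subtype.ext ?_, fun v => ?_⟩
    · exact (Submodule.eq_bot_iff _).1 hP _ ⟨x.2, hx⟩
    · rcases hσ.2 (M.map (LinearMap.snd k V W)) (by
        rintro g _ ⟨x, hx, rfl⟩; exact ⟨_, hMinv g x hx, rfl⟩) with hb | ht
      · exact absurd ((Submodule.eq_bot_iff _).1 hb _ ⟨_, hmM, rfl⟩) h'.1
      · obtain ⟨x, hx, e⟩ := (ht ▸ Submodule.mem_top : v ∈ M.map (LinearMap.snd k V W))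
        exact ⟨⟨x, hx⟩, e⟩
  let θ : V ≃ₗ[k] W := (LinearEquiv.ofBijective a ha).symm.trans (LinearEquiv.ofBijective b hb)
  have hθ : θ.conj (ρ g) = σ g := by
    refine LinearMap.ext fun v => ?_
    obtain ⟨x, rfl⟩ := hb.2 v
    have e1 : θ.symm (b x) = a x := by
      simp only [θ, LinearEquiv.trans_symm, LinearEquiv.symm_symm, LinearEquiv.trans_apply]
      rw [show b x = LinearEquiv.ofBijective b hb x from rfl, LinearEquiv.symm_apply_apply]; rfl
    rw [LinearEquiv.conj_apply_apply, e1]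
    have e2 : ρ g (a x) = a ⟨π g x, hMinv g x x.2⟩ := rfl
    rw [e2]
    simp only [θ, LinearEquiv.trans_apply]
    rw [show a ⟨π g x, hMinv g x x.2⟩ = LinearEquiv.ofBijective a ha ⟨π g x, hMinv g x x.2⟩ from rfl,
      LinearEquiv.symm_apply_apply]
    rfl
  rw [← hθ, LinearMap.trace_conj']

include hinj hp hpF hpk in
/-- The `U`-fixed vectors of an irreducible module form a line. -/
theorem fix_unique [IsAlgClosed k] [FiniteDimensional k V] (hρ : IsIrred ρ) {v v' : V} (hv : v ≠ 0)
    (h : IsFix ρ v) (h' : IsFix ρ v') : ∃ c : k, v' = c • v := by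
  haveI := hρ.1
  have hd := Modular.isIrred_dual hρ
  haveI := hd.1
  obtain ⟨f, χ, K, -, hw⟩ := exists_weight G (Modular.dualRep ρ) hinj (p := p)
  have hspan : lowSpan (Modular.dualRep ρ) f = ⊤ := (hd.2 _ (lowSpan_invariant G _ hw)).resolve_left
    fun hb => hw.1 ((Submodule.eq_bot_iff _).1 hb _ (self_mem_lowSpan _ f))
  obtain ⟨n, hn, hopp⟩ := exists_opp G (F := F)
  have hlowfix : ∀ u, IsFix ρ u → ∀ y ∈ lower D F, ρ y (ρ n u) = ρ n u := by
    intro u hu y hy
    have : n⁻¹ * y * n ∈ upper D F := (conj_opp G hn hopp _).1 (by simpa [mul_assoc] using hy)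
    rw [← Module.End.mul_apply, ← map_mul, show y * n = n * (n⁻¹ * y * n) by group, map_mul,
      Module.End.mul_apply, hu _ this]
  have hdet : ∀ u, (∀ y ∈ lower D F, ρ y u = u) → f u = 0 → u = 0 := by
    intro u hu hfu
    refine (Module.forall_dual_apply_eq_zero_iff k u).1 fun φ => ?_
    have hφ : φ ∈ lowSpan (Modular.dualRep ρ) f := hspan ▸ Submodule.mem_top
    induction hφ using Submodule.span_induction with
    | mem φ hφ =>
      obtain ⟨y, rfl⟩ := hφ
      rw [Modular.dualRep_apply, hu _ (inv_mem y.2), hfu]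
    | zero => rfl
    | add a b _ _ ha hb => rw [LinearMap.add_apply, ha, hb, add_zero]
    | smul c a _ ha => rw [LinearMap.smul_apply, ha, smul_zero]
  have hne : f (ρ n v) ≠ 0 := fun h0 => hv (by
    have := hdet _ (hlowfix v h) h0
    have e := congrArg (ρ n⁻¹) this
    rwa [← Module.End.mul_apply, ← map_mul, inv_mul_cancel, map_one, Module.End.one_apply, map_zero] at e)
  refine ⟨f (ρ n v') / f (ρ n v), ?_⟩
  set c := f (ρ n v') / f (ρ n v)
  have hfix : IsFix ρ (v' - c • v) := fun u hu => by rw [map_sub, map_smul, h' u hu, h u hu]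
  have := hdet _ (hlowfix _ hfix) (by
    rw [map_sub, map_smul, map_sub, map_smul, smul_eq_mul, div_mul_cancel₀ _ hne, sub_self])
  have e := congrArg (ρ n⁻¹) this
  rwa [← Module.End.mul_apply, ← map_mul, inv_mul_cancel, map_one, Module.End.one_apply, map_zero,
    sub_eq_zero] at e

end Cfsg.Agent.H47.Hecke
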