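import Cfsg.Agent.S2154
import Cfsg.Agent.H72.PCore
import Cfsg.Agent.H65.Twist.Endo
import Cfsg.Agent.H46.Order
import Mathlib.GroupTheory.Nilpotent

/-!
An element fixed by an endomorphism of a finite Chevalley group has its centraliser, when it generates a
`p`-group, inside a parabolic subgroup invariant under the endomorphism: iterate `V ↦ O_p(N(V))` up to a fixed
subgroup, which the Borel–Tits property identifies with a unipotent radical.
-/

set_option autoImplicit false

namespace Cfsg.Agent.H47.RadicalParabolic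

open Cfsg.Lie Cfsg.Agent.H46
open scoped Matrix MatrixGroups

/-- A subgroup `V` with `O_p(N(V)) = V`, fixed by `e`, whose normaliser contains the centraliser of `a`. -/
theorem exists_fixed_radical {Γ : Type*} [Group Γ] [Finite Γ] {p : ℕ} [Fact p.Prime] (e : Γ ≃* Γ) {a : Γ}
    (hea : e a = a) (ha : IsPGroup p ↥(Subgroup.zpowers a)) (ha1 : a ≠ 1) :
    ∃ V : Subgroup Γ, IsPGroup p ↥V ∧ V ≠ ⊥ ∧ V.map e.toMonoidHom = V ∧
      Subgroup.centralizer {a} ≤ Subgroup.normalizer (V : Set Γ) ∧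
      pCoreOf p (Subgroup.normalizer (V : Set Γ)) ≤ V := by
  classical
  set S : Set (Subgroup Γ) := {V | IsPGroup p ↥V ∧ V ≠ ⊥ ∧ V.map e.toMonoidHom = V ∧
    Subgroup.centralizer {a} ≤ Subgroup.normalizer (V : Set Γ)} with hS
  have hne : S.Nonempty := by
    refine ⟨Subgroup.zpowers a, ha, by simpa using ha1, ?_, fun c hc => ?_⟩
    · rw [MonoidHom.map_zpowers]
      simp [hea]
    · rw [Subgroup.mem_centralizer_singleton_iff] at hc
      refine Subgroup.mem_normalizer_iff.2 fun n => ⟨fun hn => ?_, fun hn => ?_⟩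
      · obtain ⟨k, rfl⟩ := Subgroup.mem_zpowers_iff.1 hn
        have : Commute c (a ^ k) := (show Commute c a from hc).zpow_right k
        rw [this.eq, mul_inv_cancel_right]
        exact hn
      · obtain ⟨k, hk⟩ := Subgroup.mem_zpowers_iff.1 hn
        have : Commute c (a ^ k) := (show Commute c a from hc).zpow_right k
        have e1 : c * n * c⁻¹ = c * a ^ k * c⁻¹ := by rw [this.eq, mul_inv_cancel_right, hk]
        rw [mul_left_cancel (mul_right_cancel e1)]
        exact Subgroup.zpow_mem_zpowers a k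
  obtain ⟨V, ⟨hp, hV, hinv, hC⟩, hmax⟩ := Set.exists_max_image S (fun V => Nat.card ↥V) (Set.toFinite _) hne
  set N := Subgroup.normalizer (V : Set Γ) with hN
  have hle : V ≤ pCoreOf p N := H72.le_pCoreOf Subgroup.le_normalizer le_rfl hp
  have hmem : pCoreOf p N ∈ S := by
    refine ⟨H72.pCoreOf_isPGroup p N, fun h => hV (le_bot_iff.1 (h ▸ hle)), ?_,
      hC.trans (H72.le_normalizer_pCoreOf p N)⟩
    rw [← H72.pCoreOf_map_equiv, hN, Subgroup.map_equiv_normalizer_eq, hinv]
  exact ⟨V, hp, hV, hinv, hC, (Subgroup.eq_of_le_of_card_ge hle (hmax _ hmem)).ge⟩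

/-- In a `p`-group, a proper subgroup has a larger normaliser. -/
theorem eq_of_inf_normalizer_le {Γ : Type*} [Group Γ] [Finite Γ] {p : ℕ} [Fact p.Prime] {V W : Subgroup Γ}
    (hW : IsPGroup p ↥W) (hVW : V ≤ W) (h : W ⊓ Subgroup.normalizer (V : Set Γ) ≤ V) : V = W := by
  refine le_antisymm hVW ?_
  rw [← Subgroup.subgroupOf_eq_top]
  by_contra hne
  haveI := hW.isNilpotent
  have hlt := Group.normalizerCondition_of_isNilpotent (V.subgroupOf W) (lt_top_iff_ne_top.2 hne)
  obtain ⟨x, hx, hxV⟩ := SetLike.exists_of_lt hlt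
  refine hxV (h ⟨x.2, Subgroup.mem_normalizer_iff.2 fun n => ⟨fun hn => ?_, fun hn => ?_⟩⟩)
  · exact (Subgroup.mem_normalizer_iff.1 hx ⟨n, hVW hn⟩).1 hn
  · have hnW : n ∈ W := by
      have := mul_mem (mul_mem (inv_mem x.2) (hVW hn)) x.2
      simpa [mul_assoc] using this
    exact (Subgroup.mem_normalizer_iff.1 hx ⟨n, hnW⟩).2 hn

variable {D : ChevalleyDatum} (G : Good D) {F : Type*} [Field F] [Fintype F]

include G in
/-- A subgroup equal to `O_p` of its normaliser is a conjugate of a proper unipotent radical, and its normaliser is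
the parabolic subgroup. -/
theorem normalizer_eq_parabolic (p : ℕ) [Fact p.Prime] [CharP F p] (V : Subgroup ↥(D.group F))
    (hp : IsPGroup p ↥V) (hne : V ≠ ⊥) (hfix : pCoreOf p (Subgroup.normalizer (V : Set ↥(D.group F))) ≤ V) :
    ∃ g : ↥(D.group F), ∃ J : Set ℕ, (∃ i, i < D.rank ∧ i ∉ J) ∧
      Subgroup.normalizer (V : Set ↥(D.group F)) =
        ((D.parabolicSubgroup F J).subgroupOf (D.group F)).map (MulAut.conj g).toMonoidHom := by
  set Vg := V.map (D.group F).subtype with hVg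
  have hVgG : Vg ≤ D.group F := Subgroup.map_subtype_le _
  have hVgne : Vg ≠ ⊥ := fun h =>
    hne ((Subgroup.map_eq_bot_iff_of_injective _ (D.group F).subtype_injective).1 h)
  obtain ⟨g₀, hg₀, hX⟩ := S2154.exists_conj_le p G Vg hVgG (hp.map _)
  obtain ⟨g, hg, J, hJ, hN, hU⟩ := BorelTits.borel_tits G Vg hVgne hg₀ hX
  refine ⟨⟨g, hg⟩, J, hJ, ?_⟩
  set c : ↥(D.group F) →* ↥(D.group F) := (MulAut.conj (⟨g, hg⟩ : ↥(D.group F))).toMonoidHom with hc
  set Q := ((D.parabolicSubgroup F J).subgroupOf (D.group F)).map c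
  set W := ((D.unipotentRadical F J).subgroupOf (D.group F)).map c with hW
  have hradU : D.unipotentRadical F J ≤ D.posUnipotent F := by
    rw [G.unipotentRadical_eq]; exact G.posSub_le_posUnipotent _
  have hWp : IsPGroup p ↥W := by
    refine IsPGroup.map ?_ _
    obtain ⟨P, hP⟩ := Cfsg.Agent.H69.Chev.sylow_posUnipotent G (F := F) p
    exact P.isPGroup'.to_le (hP ▸ Subgroup.comap_mono hradU)
  have hQ : Q ≤ Subgroup.normalizer (W : Set ↥(D.group F)) := by
    refine (Subgroup.map_mono (fun x hx => ?_)).trans (Subgroup.le_normalizer_map c)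
    refine Subgroup.mem_normalizer_iff.2 fun n => ?_
    simpa [Subgroup.mem_subgroupOf] using
      Subgroup.mem_normalizer_iff.1 (G.parabolic_le_normalizer (Subgroup.mem_subgroupOf.1 hx)) (n : GL D.Idx F)
  have hVW : V ≤ W := fun x hx => by
    obtain ⟨y, hy, hyx⟩ := hU ⟨x, hx, rfl⟩
    exact ⟨⟨y, G.posUnipotent_le_group (hradU hy)⟩, hy, Subtype.ext (by simpa [hc] using hyx)⟩
  set N := Subgroup.normalizer (V : Set ↥(D.group F)) with hNdef
  have hNQ : N ≤ Q := by
    intro x hx
    have hx' : (x : GL D.Idx F) ∈ Subgroup.normalizer (Vg : Set (GL D.Idx F)) ⊓ D.group F := by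
      refine ⟨?_, x.2⟩
      have := Subgroup.le_normalizer_map (H := V) (D.group F).subtype ⟨x, hx, rfl⟩
      exact this
    obtain ⟨y, hy, hyx⟩ := hN hx'
    exact ⟨⟨y, G.parabolic_le_group hy⟩, hy, Subtype.ext (by simpa [hc] using hyx)⟩
  have hM : W ⊓ N ≤ V := by
    refine (H72.le_pCoreOf inf_le_right ?_ (hWp.to_le inf_le_left)).trans hfix
    intro x hx
    refine Subgroup.mem_normalizer_iff.2 fun n => ?_
    have h1 := Subgroup.mem_normalizer_iff.1 (hQ (hNQ hx)) n
    simp only [Subgroup.mem_inf, h1]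
    refine and_congr_right fun _ => ?_
    constructor
    · exact fun hn => mul_mem (mul_mem hx hn) (inv_mem hx)
    · intro hn
      have := mul_mem (mul_mem (inv_mem hx) hn) hx
      simpa [mul_assoc] using this
  have hVWeq := eq_of_inf_normalizer_le hWp hVW hM
  exact le_antisymm hNQ (by rw [hNdef, hVWeq]; exact hQ)

include G in
theorem parabolic_empty : D.parabolicSubgroup F ∅ = D.borelSubgroup F := by
  rw [ChevalleyDatum.parabolicSubgroup, sup_eq_left, Subgroup.closure_le]
  rintro g ⟨j, hj, -⟩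
  exact absurd hj (Set.notMem_empty j)

include G in
theorem radical_empty : D.unipotentRadical F ∅ = D.posUnipotent F := by
  rw [G.unipotentRadical_eq, G.posUnipotent_eq]
  refine le_antisymm (G.posSub_mono (T := Set.univ) fun _ _ _ => trivial)
    (G.posSub_mono (T := G.radSet ∅) fun r hr _ => ⟨hr, fun h => ?_⟩)
  exact G.rc_ne_zero hr.1 (funext fun k => (G.inRootSub_iff.1 h).2 k (Set.notMem_empty _))

/-- The elements of the Weyl group of `J` fix the coordinates outside `J`. -/
theorem weylJ_coord {J : Set ℕ} {π : Equiv.Perm (Fin D.nroots)} (hπ : π ∈ H65.Twist.weylJ G J) :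
    ∀ (r : Fin D.nroots) (k : Fin D.rank), k.val ∉ J → G.rc (π r) k = G.rc r k := by
  induction hπ using Subgroup.closure_induction with
  | mem x hx =>
    obtain ⟨i, hi, rfl⟩ := hx
    intro r k hk
    rw [G.sPerm_apply, G.rc_reflect i.2 r.2]
    have hne : k ≠ i := fun e => hk (e ▸ hi)
    simp [hne]
  | one => intro r k _; rfl
  | mul x y _ _ hx hy => intro r k hk; rw [Equiv.Perm.mul_apply, hx _ k hk, hy r k hk]
  | inv x _ hx =>
    intro r k hk
    have := hx (x⁻¹ r) k hk
    rw [show x (x⁻¹ r) = r from x.apply_symm_apply r] at this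
    exact this.symm

include G in
/-- The fundamental reflection of `j` lies in `P_J` only for `j ∈ J`. -/
theorem mem_of_ng_mem_parabolic {J : Set ℕ} {j : Fin D.rank}
    (h : G.ng (D.simple j) (1 : F) ∈ D.parabolicSubgroup F J) : j.val ∈ J := by
  obtain ⟨n, hn, hw, hcell⟩ := H65.Twist.parabolic_cell G J h
  have hs := G.ng_mem_monomial (F := F) (G.simple_lt j.2)
  obtain ⟨b, hb, b', hb', e⟩ := G.mem_bruhatCell.1 hcell
  have hp : G.perm (G.ng (D.simple j) (1 : F)) = G.perm n :=
    G.perm_eq_of_double_coset (inv_mem hb) hb' hs hn (by rw [e]; group)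
  by_contra hj
  have hc := weylJ_coord G (hp.symm ▸ hw) (G.simpleF j) j hj
  rw [G.perm_ng_simple, G.sPerm_simple] at hc
  simp [Good.negF, Good.simpleF, G.rc_neg (G.simple_lt j.2), G.rc_simple j.2] at hc

include G in
/-- An invariant conjugate of a parabolic subgroup has an invariant index set. -/
theorem index_invariant (p : ℕ) [Fact p.Prime] [CharP F p] (E : H65.Twist.RootEndo G F)
    (e : ↥(D.group F) ≃* ↥(D.group F)) (he : ∀ x, e x = E.τ x) (σ : Fin D.rank → Fin D.rank)
    (hσ : ∀ i, E.ρ (G.simpleF i) = G.simpleF (σ i)) (g : ↥(D.group F)) (J : Set ℕ)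
    (hinv : (((D.parabolicSubgroup F J).subgroupOf (D.group F)).map (MulAut.conj g).toMonoidHom).map e.toMonoidHom =
      ((D.parabolicSubgroup F J).subgroupOf (D.group F)).map (MulAut.conj g).toMonoidHom) :
    ∀ j : Fin D.rank, j.val ∈ J → ∃ i : Fin D.rank, i.val ∈ J ∧ σ i = j := by
  set J' : Set ℕ := {k | ∃ i : Fin D.rank, i.val ∈ J ∧ (σ i).val = k}
  set P' := (D.parabolicSubgroup F J').subgroupOf (D.group F) with hP'
  set x : ↥(D.group F) := g⁻¹ * e g with hx
  -- the endomorphism maps `P_J` into `P_J'`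
  have hmap : ∀ y : ↥(D.group F), (y : GL D.Idx F) ∈ D.parabolicSubgroup F J → e y ∈ P' := by
    intro y hy
    have hle : D.parabolicSubgroup F J ≤ (P'.comap e.toMonoidHom).map (D.group F).subtype := by
      refine sup_le (fun z hz => ?_) ((Subgroup.closure_le _).2 ?_)
      · refine ⟨⟨z, G.borel_le_group hz⟩, ?_, rfl⟩
        rw [SetLike.mem_coe, Subgroup.mem_comap, MulEquiv.coe_toMonoidHom, hP', Subgroup.mem_subgroupOf, he]
        exact Subgroup.mem_sup_left (E.τ_borel hz)
      · rintro z ⟨j, hj, hjr, hz⟩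
        obtain rfl := G.eq_ng hz
        refine ⟨⟨G.ng (D.simple j) 1, G.ng_mem_group _ _⟩, ?_, rfl⟩
        rw [SetLike.mem_coe, Subgroup.mem_comap, MulEquiv.coe_toMonoidHom, hP', Subgroup.mem_subgroupOf, he]
        refine (congrArg (· ∈ D.parabolicSubgroup F J') (E.τ_ng (G.simpleF ⟨j, hjr⟩) (1 : F))).mpr ?_
        rw [hσ, map_one]
        exact G.ng_simple_mem_parabolic (σ ⟨j, hjr⟩).2 ⟨⟨j, hjr⟩, hj, rfl⟩
    obtain ⟨y', hy', eq⟩ := hle hy
    exact (Subtype.ext eq : y' = y) ▸ hy'
  have hconj : ∀ y : ↥(D.group F), (y : GL D.Idx F) ∈ D.parabolicSubgroup F J → x⁻¹ * y * x ∈ P' := by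
    intro y hy
    have : g * y * g⁻¹ ∈ ((D.parabolicSubgroup F J).subgroupOf (D.group F)).map (MulAut.conj g).toMonoidHom :=
      ⟨y, hy, by simp⟩
    rw [← hinv] at this
    obtain ⟨-, ⟨z, hz, rfl⟩, hzy⟩ := this
    have hzy' : e g * e z * (e g)⁻¹ = g * y * g⁻¹ := by simpa using hzy
    have : x⁻¹ * y * x = e z := by
      rw [hx, show (g⁻¹ * e g)⁻¹ * y * (g⁻¹ * e g) = (e g)⁻¹ * (g * y * g⁻¹) * e g by group, ← hzy']
      group
    rw [this]
    exact hmap z hz
  -- `x` lies in `P_J'` by Sylow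
  obtain ⟨P, hP⟩ := Cfsg.Agent.H69.Chev.sylow_posUnipotent G (F := F) p
  have hU : ∀ {K : Set ℕ}, (P : Subgroup ↥(D.group F)) ≤ (D.parabolicSubgroup F K).subgroupOf (D.group F) := by
    intro K
    rw [hP]
    exact Subgroup.comap_mono (le_sup_left.trans le_sup_left)
  have hxP : ((x⁻¹ • P : Sylow p ↥(D.group F)) : Subgroup ↥(D.group F)) ≤ P' := by
    intro y hy
    rw [Sylow.coe_subgroup_smul, Subgroup.mem_pointwise_smul_iff_inv_smul_mem] at hy
    have := hconj _ (hU hy)
    simpa [MulAut.smul_def, mul_assoc] using this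
  obtain ⟨⟨k, hk⟩, hkx⟩ := MulAction.exists_smul_eq ↥P' ((x⁻¹ • P).subtype hxP) (P.subtype (hU (K := J')))
  have hfixP : (k * x⁻¹) • P = P := by
    rw [mul_smul]
    rw [Sylow.smul_subtype] at hkx
    exact Sylow.subtype_injective hkx
  have hxmem : x ∈ P' := by
    have hN : k * x⁻¹ ∈ Subgroup.normalizer (((P : Subgroup ↥(D.group F))) : Set ↥(D.group F)) :=
      Sylow.smul_eq_iff_mem_normalizer.1 hfixP
    have hN' : ((k * x⁻¹ : ↥(D.group F)) : GL D.Idx F) ∈ D.parabolicSubgroup F ∅ := by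
      rw [← G.normalizer_radical, radical_empty G]
      refine ⟨Subgroup.mem_normalizer_iff.2 fun n => ⟨fun hn => ?_, fun hn => ?_⟩, (k * x⁻¹).2⟩
      · have := (Subgroup.mem_normalizer_iff.1 hN ⟨n, G.posUnipotent_le_group hn⟩).1 (by rw [hP]; exact hn)
        rwa [hP] at this
      · have hnG : n ∈ D.group F := by
          have := mul_mem (mul_mem (inv_mem (k * x⁻¹).2) (G.posUnipotent_le_group hn)) (k * x⁻¹).2
          simpa [mul_assoc] using this
        have := (Subgroup.mem_normalizer_iff.1 hN ⟨n, hnG⟩).2 (by rw [hP]; exact hn)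
        rwa [hP] at this
    rw [parabolic_empty G] at hN'
    have hB : (k * x⁻¹) ∈ P' := Subgroup.mem_sup_left hN'
    have := mul_mem (inv_mem hB) hk
    simpa using this
  intro j hj
  have hjP : (⟨G.ng (D.simple j) 1, G.ng_mem_group _ _⟩ : ↥(D.group F)) ∈ P' := by
    have := mul_mem (mul_mem hxmem (hconj ⟨G.ng (D.simple j) 1, G.ng_mem_group _ _⟩
      (G.ng_simple_mem_parabolic j.2 hj))) (inv_mem hxmem)
    simpa [mul_assoc] using this
  obtain ⟨i, hi, hij⟩ := mem_of_ng_mem_parabolic G hjP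
  exact ⟨i, hi, Fin.ext hij⟩

end Cfsg.Agent.H47.RadicalParabolic
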