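import Cfsg.Agent.H47.RadicalParabolic
import Cfsg.Agent.H65.Twist.F4

/-!
The centraliser of an involution of ²F₄(q) lies in a parabolic subgroup of F₄(q) of type A₁×A₁ or B₂.
-/

set_option autoImplicit false
set_option linter.unusedSectionVars false
set_option maxRecDepth 100000

namespace Cfsg.Agent.H47.ReeF4Centralizer

open Cfsg.Lie Cfsg.Agent.H46 Cfsg.Agent.H65.Twist
open scoped Matrix MatrixGroups

theorem actW_cons {D : ChevalleyDatum} (i : ℕ) (w : List ℕ) (r : ℕ) :
    actW D (i :: w) r = D.reflectRoot i (actW D w r) := rfl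

theorem permW_val {D : ChevalleyDatum} (G : Good D) : ∀ (w : List ℕ), (∀ i ∈ w, i < D.rank) →
    ∀ r : Fin D.nroots, (G.permW w r : ℕ) = actW D w r
  | [], _, r => rfl
  | i :: w, h, r => by
    have hi : i < D.rank := h i List.mem_cons_self
    rw [G.permW_cons, Equiv.Perm.mul_apply, Good.sPermN, dif_pos hi, G.sPerm_apply, actW_cons,
      permW_val G w (fun j hj => h j (List.mem_cons_of_mem _ hj)) r]

/-- The words of the two Weyl groups. -/
def wd (j : Fin 2) (d : Fin (f4Ws j).length) : List ℕ := (f4Ws j).get d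

/-- The number of positive roots made negative by a word. -/
def invN (w : List ℕ) : ℕ := ((List.range 48).filter fun r => decide (24 ≤ r ∧ actW chevF4 w r < 24)).length

theorem wd_lt : ∀ j : Fin 2, ∀ d : Fin (f4Ws j).length, ∀ i ∈ wd j d, i < chevF4.rank ∧ i ∈ f4Jl j := by
  decide +kernel

theorem wd_inj : ∀ j : Fin 2, ∀ d d' : Fin (f4Ws j).length,
    (∀ r : Fin chevF4.nroots, actW chevF4 (wd j d) r.val = actW chevF4 (wd j d') r.val) → d = d' := by
  decide +kernel

/-- The Poincaré sums of the two Weyl groups. -/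
theorem poincare (q : ℕ) : ∀ j : Fin 2, ∑ d : Fin (f4Ws j).length, q ^ invN (wd j d) =
    [(1 + q) ^ 2, (1 + q) ^ 2 * (1 + q ^ 2)].getD j.val 0 := by
  have h0 : List.ofFn (fun d : Fin (f4Ws 0).length => invN (wd 0 d)) = [0, 1, 1, 2] := by decide +kernel
  have h1 : List.ofFn (fun d : Fin (f4Ws 1).length => invN (wd 1 d)) = [0, 1, 1, 2, 2, 3, 3, 4] := by decide +kernel
  intro j
  fin_cases j
  · show ∑ d : Fin (f4Ws 0).length, q ^ invN (wd 0 d) = _
    rw [← List.sum_ofFn, show List.ofFn (fun d => q ^ invN (wd 0 d)) =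
      (List.ofFn fun d => invN (wd 0 d)).map (fun n => q ^ n) by simp [List.map_ofFn, Function.comp_def], h0]
    simp; ring
  · show ∑ d : Fin (f4Ws 1).length, q ^ invN (wd 1 d) = _
    rw [← List.sum_ofFn, show List.ofFn (fun d => q ^ invN (wd 1 d)) =
      (List.ofFn fun d => invN (wd 1 d)).map (fun n => q ^ n) by simp [List.map_ofFn, Function.comp_def], h1]
    simp; ring

variable {K : Type*} [Field K] [Fintype K]

theorem nInv_wd (j : Fin 2) (d : Fin (f4Ws j).length) :
    goodF4.nInv (goodF4.permW (wd j d)) = invN (wd j d) := by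
  have h : ∀ r : Fin chevF4.nroots, (chevF4.IsPosRoot r ∧ chevF4.IsNegRoot (goodF4.permW (wd j d) r)) ↔
      (24 ≤ r.val ∧ actW chevF4 (wd j d) r.val < 24) := fun r => by
    rw [goodF4.isPosRoot_iff, goodF4.isNegRoot_iff, permW_val goodF4 _ (fun i hi => (wd_lt j d i hi).1)]
    exact ⟨fun h => ⟨h.1.1, h.2⟩, fun h => ⟨⟨h.1, r.2⟩, h.2⟩⟩
  rw [Good.nInv, invN, Finset.filter_congr fun r _ => h r, ← List.toFinset_card_of_nodup
    ((List.nodup_range).filter _)]
  refine Finset.card_bij (fun r _ => r.val) (fun r hr => ?_) (fun a _ b _ e => Fin.ext e) (fun r hr => ?_)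
  · simp only [Finset.mem_filter, Finset.mem_univ, true_and] at hr
    simpa [hr] using (f4_nroots ▸ r.2 : r.val < 48)
  · simp only [List.mem_toFinset, List.mem_filter, List.mem_range, decide_eq_true_eq] at hr
    exact ⟨⟨r, by rw [f4_nroots]; exact hr.1⟩, by simpa using hr.2, rfl⟩

theorem weylJ_word (j : Fin 2) {π : Equiv.Perm (Fin chevF4.nroots)}
    (hπ : π ∈ weylJ goodF4 {i | i ∈ f4Jl j}) : ∃ d, π = goodF4.permW (wd j d) := by
  have hC := (f4_weyl_chk j).1
  simp only [chkClosed, Bool.and_eq_true, List.contains_iff_mem, List.all_eq_true, List.any_eq_true,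
    List.mem_range, beq_iff_eq] at hC
  obtain ⟨h0, hstep⟩ := hC
  obtain ⟨w, hw, hwπ⟩ : ∃ w ∈ f4Ws j, ∀ r : Fin chevF4.nroots, (π r).val = actW chevF4 w r.val := by
    induction hπ using Subgroup.closure_induction_left with
    | one => exact ⟨[], h0, fun r => rfl⟩
    | mul_left x hx y _ ih =>
      obtain ⟨i, hi, rfl⟩ := hx
      obtain ⟨w, hw, hwy⟩ := ih
      obtain ⟨w', hw', h⟩ := hstep w hw i hi
      exact ⟨w', hw', fun r => by rw [Equiv.Perm.mul_apply, goodF4.sPerm_apply, hwy, h r r.2]⟩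
    | inv_mul_cancel x hx y _ ih =>
      obtain ⟨i, hi, rfl⟩ := hx
      obtain ⟨w, hw, hwy⟩ := ih
      obtain ⟨w', hw', h⟩ := hstep w hw i hi
      exact ⟨w', hw', fun r => by
        rw [inv_eq_of_mul_eq_one_right (goodF4.sPerm_mul_self i), Equiv.Perm.mul_apply, goodF4.sPerm_apply,
          hwy, h r r.2]⟩
  obtain ⟨d, hd⟩ := List.mem_iff_get.1 hw
  exact ⟨d, Equiv.ext fun r => Fin.ext (by
    rw [hwπ, permW_val goodF4 _ (fun i hi => (wd_lt j d i hi).1), wd, hd])⟩

/-- The order of the parabolic subgroup of a class. -/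
theorem card_parabolic (j : Fin 2) : Nat.card ↥(chevF4.parabolicSubgroup K {i | i ∈ f4Jl j}) =
    Nat.card ↥(chevF4.borelSubgroup K) * [(1 + Fintype.card K) ^ 2,
      (1 + Fintype.card K) ^ 2 * (1 + Fintype.card K ^ 2)].getD j.val 0 := by
  classical
  set J : Set ℕ := {i | i ∈ f4Jl j}
  have hrep : ∀ d : Fin (f4Ws j).length, ∃ n ∈ chevF4.parabolicSubgroup K J,
      n ∈ chevF4.monomialSubgroup K ∧ goodF4.perm n = goodF4.permW (wd j d) := by
    intro d
    have hlt := wd_lt j d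
    generalize wd j d = w at hlt ⊢
    induction w with
    | nil => exact ⟨1, one_mem _, one_mem _, goodF4.perm_eq goodF4.monRel_one⟩
    | cons i w ih =>
      obtain ⟨n, hnP, hn, e⟩ := ih fun k hk => hlt k (List.mem_cons_of_mem _ hk)
      obtain ⟨hi, hiJ⟩ := hlt i List.mem_cons_self
      have hs := goodF4.ng_mem_monomial (F := K) (goodF4.simple_lt hi)
      refine ⟨goodF4.ng (chevF4.simple i) 1 * n, mul_mem (goodF4.ng_simple_mem_parabolic hi hiJ) hnP,
        mul_mem hs hn, ?_⟩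
      rw [goodF4.perm_mul hs hn, e, goodF4.permW_cons, Good.sPermN, dif_pos hi, goodF4.perm_ng_simple ⟨i, hi⟩]
  choose rep hrepP hrepN hrepE using hrep
  have hUP : ∀ (d : Fin (f4Ws j).length) (u : GL chevF4.Idx K),
      u ∈ goodF4.posSub (F := K) (goodF4.invSet (rep d)) → u ∈ chevF4.parabolicSubgroup K J := fun d u hu =>
    Subgroup.mem_sup_left (Subgroup.mem_sup_left (goodF4.posSub_le_posUnipotent _ hu))
  let φ : (Σ d : Fin (f4Ws j).length, ↥(chevF4.borelSubgroup K) ×
      ↥(goodF4.posSub (F := K) (goodF4.invSet (rep d)))) → ↥(chevF4.parabolicSubgroup K J) :=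
    fun p => ⟨p.2.1.1 * rep p.1 * p.2.2.1,
      mul_mem (mul_mem (Subgroup.mem_sup_left p.2.1.2) (hrepP p.1)) (hUP _ _ p.2.2.2)⟩
  have hφ : Function.Bijective φ := by
    refine ⟨?_, ?_⟩
    · rintro ⟨d, b, u⟩ ⟨d', b', u'⟩ h
      have h' : b.1 * rep d * u.1 = b'.1 * rep d' * u'.1 := congrArg Subtype.val h
      obtain ⟨hd, hu, hb⟩ := goodF4.bruhat_unique b.2 b'.2 (hrepN d) (hrepN d') u.2 u'.2 h'
      have e := (goodF4.perm_eq_one_iff (mul_mem (inv_mem (hrepN d)) (hrepN d'))).2 hd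
      rw [goodF4.perm_mul (inv_mem (hrepN d)) (hrepN d'), goodF4.perm_inv (hrepN d), inv_mul_eq_one,
        hrepE, hrepE] at e
      obtain rfl : d = d' := wd_inj j d d' fun r => by
        rw [← permW_val goodF4 _ (fun i hi => (wd_lt j d i hi).1),
          ← permW_val goodF4 _ (fun i hi => (wd_lt j d' i hi).1), e]
      obtain rfl : u = u' := Subtype.ext hu
      obtain rfl : b = b' := Subtype.ext (hb rfl)
      rfl
    · rintro ⟨g, hg⟩
      obtain ⟨n, hn, hw, hcell⟩ := parabolic_cell goodF4 J hg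
      obtain ⟨d, hd⟩ := weylJ_word j hw
      have hd' : (rep d)⁻¹ * n ∈ chevF4.diagonalSubgroup K := by
        rw [← goodF4.perm_eq_one_iff (mul_mem (inv_mem (hrepN d)) hn), goodF4.perm_mul (inv_mem (hrepN d)) hn,
          goodF4.perm_inv (hrepN d), hrepE, hd, inv_mul_cancel]
      have hcell' : g ∈ goodF4.bruhatCell (rep d) := by
        obtain ⟨b, hb, b', hb', rfl⟩ := goodF4.mem_bruhatCell.1 hcell
        exact goodF4.mem_bruhatCell.2
          ⟨b, hb, (rep d)⁻¹ * n * b', mul_mem (Subgroup.mem_sup_right hd') hb', by group⟩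
      obtain ⟨b, hb, u, hu, e⟩ := goodF4.bruhatCell_normal_form (hrepN d) hcell'
      exact ⟨⟨d, ⟨b, hb⟩, ⟨u, hu⟩⟩, Subtype.ext e.symm⟩
  rw [← Nat.card_congr (Equiv.ofBijective φ hφ), Nat.card_sigma, ← poincare, Finset.mul_sum]
  refine Finset.sum_congr rfl fun d _ => ?_
  rw [Nat.card_prod, goodF4.card_posSub_invSet (hrepN d), hrepE, nInv_wd]

/-- A prime dividing the order of one of the two parabolic subgroups divides `q (q⁴ - 1)`. -/
theorem prime_dvd [CharP K 2] (j : Fin 2) {ℓ : ℕ} (hℓ : ℓ.Prime)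
    (h : ℓ ∣ Nat.card ↥(chevF4.parabolicSubgroup K {i | i ∈ f4Jl j})) :
    ℓ ∣ Fintype.card K * (Fintype.card K ^ 4 - 1) := by
  classical
  set q := Fintype.card K with hq
  have hq1 : 1 < q := Fintype.one_lt_card
  have hfac : (q - 1) * ((1 + q) * (1 + q ^ 2)) = q ^ 4 - 1 := by
    have h4 : 1 ≤ q ^ 4 := Nat.one_le_pow _ _ (by omega)
    zify [hq1.le, h4]
    ring
  have hdiv : ∀ {d}, d ∣ (q - 1) * ((1 + q) * (1 + q ^ 2)) → d ∣ q * (q ^ 4 - 1) := fun hd =>
    (hfac ▸ hd : _ ∣ q ^ 4 - 1).mul_left q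
  rw [card_parabolic, Cfsg.Agent.H69.Chev.card_borel goodF4, Cfsg.Agent.H69.Chev.card_posUnipotent goodF4] at h
  rcases hℓ.dvd_mul.1 h with h | h
  · rcases hℓ.dvd_mul.1 h with h | h
    · exact (hℓ.dvd_of_dvd_pow h).mul_right _
    · have hT : Nat.card ↥(chevF4.diagonalSubgroup K) ∣ (q - 1) ^ chevF4.rank := by
        have hmap : ∀ z : ↥(chevF4.diagonalSubgroup K), ∃ y : Fin chevF4.rank → Kˣ, goodF4.torus y = (z : GL chevF4.Idx K) :=
          fun z => by obtain ⟨y, hy⟩ := goodF4.mem_diagonal.1 z.2; exact ⟨y, hy.symm⟩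
        let f : (Fin chevF4.rank → Kˣ) →* ↥(chevF4.diagonalSubgroup K) :=
          goodF4.torus.codRestrict _ fun y => goodF4.mem_diagonal.2 ⟨y, rfl⟩
        have hf : Function.Surjective f := fun z => by
          obtain ⟨y, hy⟩ := hmap z
          exact ⟨y, Subtype.ext hy⟩
        have := Subgroup.card_dvd_of_surjective f hf
        rwa [Nat.card_pi, Finset.prod_const, Finset.card_univ, Fintype.card_fin, Nat.card_units, Nat.card_eq_fintype_card (α := K)] at this
      exact hdiv ((hℓ.dvd_of_dvd_pow (h.trans hT)).mul_right _)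
  · have : ℓ ∣ (1 + q) * (1 + q ^ 2) := by
      fin_cases j
      · exact (hℓ.dvd_of_dvd_pow (by simpa using h)).mul_right _
      · rcases hℓ.dvd_mul.1 (by simpa using h) with h | h
        · exact (hℓ.dvd_of_dvd_pow h).mul_right _
        · exact h.mul_left _
    exact hdiv (this.mul_left _)

theorem rho_simple : ∀ i : Fin chevF4.rank, f4Rho (goodF4.simpleF i) = goodF4.simpleF i.rev := by decide +kernel

theorem f4Tau_bijective [CharP K 2] (m : ℕ) : Function.Bijective (f4Tau K m) := by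
  refine Finite.injective_iff_bijective.1 fun x y h => ?_
  have hperf : ∀ t : K, ∃ u : K, u ^ 2 = t := fun t => by
    obtain ⟨u, hu⟩ := (Finite.injective_iff_bijective.1 (frobenius K 2).injective).2 t
    exact ⟨u, by rw [← hu]; rfl⟩
  refine (H47.f4Iso_bijective K hperf).1 (Subtype.ext (Units.ext ?_))
  have h1 := congrArg (fun g : ↥(chevF4.group K) => ((g : GL chevF4.Idx K) : Matrix chevF4.Idx chevF4.Idx K)) h
  exact Matrix.map_injective (iterateFrobenius K 2 m).injective h1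

/-- Primes of orders of elements of ²F₄(q) centralising an involution. -/
theorem prime_dvd_of_commute {m : ℕ} (hK : Fintype.card K = 2 ^ (2 * m + 1))
    (a b : ↥(twistedF4 K (2 ^ m))) (ha : orderOf a = 2) (hab : Commute a b) {ℓ : ℕ} (hℓ : ℓ.Prime)
    (hb : ℓ ∣ orderOf b) : ℓ ∣ Fintype.card K * (Fintype.card K ^ 4 - 1) := by
  classical
  have hfact : Fact (Nat.Prime 2) := ⟨Nat.prime_two⟩
  have hchar : CharP K 2 := charP_of_card_eq_prime_pow hK
  let A : ↥(chevF4.group K) := ⟨a, twistedF4_le a.2⟩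
  let B : ↥(chevF4.group K) := ⟨b, twistedF4_le b.2⟩
  have hA : orderOf A = 2 := by rw [← ha, ← Subgroup.orderOf_coe, ← Subgroup.orderOf_coe a]
  let e := MulEquiv.ofBijective (f4Tau K m) (f4Tau_bijective m)
  have hfixed : e A = A := f4W_fixed hK A a.2
  have hAp : IsPGroup 2 ↥(Subgroup.zpowers A) := by
    refine IsPGroup.of_card (n := 1) ?_
    rw [Nat.card_zpowers, hA, pow_one]
  obtain ⟨V, hVp, hV, hinv, hC, hfix⟩ := RadicalParabolic.exists_fixed_radical e hfixed hAp
    (fun h => by rw [h, orderOf_one] at hA; omega)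
  obtain ⟨g, J, ⟨i₀, hi₀, hi₀J⟩, hN⟩ := RadicalParabolic.normalizer_eq_parabolic goodF4 2 V hVp hV hfix
  have hinvQ := Subgroup.map_equiv_normalizer_eq V e
  rw [hinv, hN] at hinvQ
  have hsym := RadicalParabolic.index_invariant goodF4 2 (f4Endo K m) e (fun _ => rfl) Fin.rev rho_simple g J hinvQ
  have hrev : ∀ i : Fin chevF4.rank, i.val ∈ J → i.rev.val ∈ J := fun i hi => by
    obtain ⟨i', hi', e'⟩ := hsym i hi
    rwa [← e', Fin.rev_rev]
  obtain ⟨j, hj⟩ : ∃ j : Fin 2, chevF4.parabolicSubgroup K J ≤ chevF4.parabolicSubgroup K {i | i ∈ f4Jl j} := by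
    suffices h : ∃ j : Fin 2, ∀ i : Fin chevF4.rank, i.val ∈ J → i.val ∈ f4Jl j by
      obtain ⟨j, hj⟩ := h
      refine ⟨j, sup_le le_sup_left ((Subgroup.closure_mono ?_).trans le_sup_right)⟩
      rintro x ⟨k, hk, hkr, hx⟩
      exact ⟨k, hj ⟨k, hkr⟩ hk, hkr, hx⟩
    have h4 : chevF4.rank = 4 := rfl
    by_cases h0 : (0 : ℕ) ∈ J
    · refine ⟨0, fun i hi => ?_⟩
      by_contra hni
      have h3 : (3 : ℕ) ∈ J := hrev ⟨0, by omega⟩ h0
      have h12 : (1 : ℕ) ∈ J ∧ (2 : ℕ) ∈ J := by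
        obtain ⟨i, hlt⟩ := i
        have hi4 : i < 4 := by omega
        interval_cases i
        · exact absurd (by show _ ∈ _; simp [f4Jl]) hni
        · exact ⟨hi, hrev ⟨1, hlt⟩ hi⟩
        · exact ⟨hrev ⟨2, hlt⟩ hi, hi⟩
        · exact absurd (by show _ ∈ _; simp [f4Jl]) hni
      have : i₀ < 4 := by omega
      interval_cases i₀
      · exact hi₀J h0
      · exact hi₀J h12.1
      · exact hi₀J h12.2
      · exact hi₀J h3
    · refine ⟨1, fun i hi => ?_⟩
      obtain ⟨i, hlt⟩ := i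
      have hi4 : i < 4 := by omega
      interval_cases i
      · exact absurd hi h0
      · show _ ∈ _; simp [f4Jl]
      · show _ ∈ _; simp [f4Jl]
      · exact absurd (hrev ⟨3, hlt⟩ hi) h0
  have hB : B ∈ Subgroup.normalizer (V : Set ↥(chevF4.group K)) := by
    refine hC (Subgroup.mem_centralizer_singleton_iff.2 ?_)
    exact Subtype.ext (congrArg (Subtype.val : ↥(twistedF4 K (2 ^ m)) → _) hab.symm.eq)
  rw [hN] at hB
  obtain ⟨y, hy, hyB⟩ := hB
  have ho : orderOf (y : GL chevF4.Idx K) = orderOf b := by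
    rw [Subgroup.orderOf_coe, ← MulEquiv.orderOf_eq (MulAut.conj g) y,
      show (MulAut.conj g) y = B from hyB, ← Subgroup.orderOf_coe, ← Subgroup.orderOf_coe b]
  refine prime_dvd j hℓ ((ho.symm ▸ hb).trans ?_)
  exact Subgroup.orderOf_dvd_natCard _ (hj hy)

end Cfsg.Agent.H47.ReeF4Centralizer
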