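import Cfsg.Agent.H47.CurtisRichen
import Mathlib.GroupTheory.FiniteAbelian.Duality
import Mathlib.RingTheory.RootsOfUnity.AlgebraicallyClosed

/-!
# Every admissible weight occurs, and the count of the `p`-regular classes

The weight vector of `(χ, K)` is the sum of the `T_{w n₀} f₀` over the Weyl group of the reflections in which `χ`
is trivial and that lie outside `K`, in the functions on the group.
-/

set_option autoImplicit false

namespace Cfsg.Agent.H47.Hecke

open Cfsg.Lie Cfsg.Agent.H46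
open Cfsg.Agent.H43.D1 (IsIrred regClasses)
open scoped Matrix MatrixGroups

universe u v w

variable {D : ChevalleyDatum} (G : Good D) {F : Type u} [Field F] [Fintype F]
variable {k : Type v} [Field k] (hinj : Function.Injective (G.torus (F := F)))

/-- The product of the reflection representatives along a word. -/
noncomputable def word (l : List (Fin D.rank)) : ↥(D.group F) := (l.map fun i => ns G i).prod

include G

omit [Fintype F] in
theorem word_cons (i : Fin D.rank) (l : List (Fin D.rank)) :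
    word G (F := F) (i :: l) = ns G i * word G l := by simp [word]

omit [Fintype F] in
theorem word_append (l l' : List (Fin D.rank)) : word G (F := F) (l ++ l') = word G l * word G l' := by
  simp [word]

omit [Fintype F] in
theorem word_nil : word G (F := F) [] = 1 := rfl

omit [Fintype F] in
theorem pm_one : pm G (1 : ↥(D.group F)) = 1 := G.perm_eq G.monRel_one

omit [Fintype F] in
theorem word_mem : ∀ l, word G (F := F) l ∈ mono D F
  | [] => one_mem _
  | i :: l => by rw [word_cons]; exact mul_mem (ns_mem G i) (word_mem l)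

omit [Fintype F] in
theorem rc_word (i : Fin D.rank) : ∀ l : List (Fin D.rank), i ∉ l → ∀ s : Fin D.nroots,
    G.rc (pm G (word G (F := F) l) s : Fin D.nroots) i = G.rc s i
  | [], _, s => by rw [word_nil, pm_one]; rfl
  | j :: l, h, s => by
    rw [List.mem_cons, not_or] at h
    rw [word_cons, pm_mul G (ns_mem G j) (word_mem G l), Equiv.Perm.mul_apply, pm_ns, G.sPerm_apply,
      G.rc_reflect j.2 (Fin.isLt _)]
    simp [h.1, rc_word i l h.2 s]

include hinj in
/-- Characters trivial on the coordinates of a word are invariant under it. -/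
theorem char_word {χ : (Fin D.rank → Fˣ) →* kˣ} : ∀ l : List (Fin D.rank),
    (∀ j ∈ l, ∀ c, χ (Pi.mulSingle j c) = 1) → ∀ (h : word G (F := F) l ∈ mono D F) (z : Fin D.rank → Fˣ),
      χ (conjZ G hinj h z) = χ z
  | [], _, h, z => by
    congr 1
    exact conjZ_eq G hinj h (by rw [word_nil]; group)
  | j :: l, hl, h, z => by
    have hj : conjZ G hinj (ns_mem G j) z = _ := conjZ_eq G hinj (ns_mem G j) (tor_conj_ns G j z)
    have e : conjZ G hinj h z = conjZ G hinj (word_mem G l) (conjZ G hinj (ns_mem G j) z) := by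
      refine conjZ_eq G hinj h ?_
      rw [← conjZ_spec G hinj (word_mem G l), ← conjZ_spec G hinj (ns_mem G j), word_cons]
      group
    rw [e, char_word l (fun a ha => hl a (List.mem_cons_of_mem _ ha)), hj, map_mul,
      hl j List.mem_cons_self, mul_one]

/-- The elements that are words in `L` times a torus element killed by `χ`. -/
def wordSet (χ : (Fin D.rank → Fˣ) →* kˣ) (L : Finset (Fin D.rank)) : Set ↥(D.group F) :=
  {g | ∃ l, (∀ j ∈ l, j ∈ L) ∧ ∃ z, χ z = 1 ∧ g = word G l * tor G z}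

theorem wordSet_mem {χ : (Fin D.rank → Fˣ) →* kˣ} {L : Finset (Fin D.rank)} {g : ↥(D.group F)}
    (hg : g ∈ wordSet G χ L) : g ∈ mono D F := by
  obtain ⟨l, -, z, -, rfl⟩ := hg
  exact mul_mem (word_mem G l) (tor_mem G z)

section

variable {χ : (Fin D.rank → Fˣ) →* kˣ} {L : Finset (Fin D.rank)}
  (hL : ∀ j ∈ L, ∀ c, χ (Pi.mulSingle j c) = 1)

include hinj hL

theorem char_conj {g : ↥(D.group F)} (hg : g ∈ wordSet G χ L) (hn : g ∈ mono D F) (z : Fin D.rank → Fˣ) :
    χ (conjZ G hinj hn z) = χ z := by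
  obtain ⟨l, hl, z', -, rfl⟩ := hg
  have hz : conjZ G hinj hn z = conjZ G hinj (word_mem G l) z := by
    refine conjZ_eq G hinj hn ?_
    rw [show (word G l * tor G z')⁻¹ * tor G z * (word G l * tor G z') =
      (tor G z')⁻¹ * ((word G l)⁻¹ * tor G z * word G l) * tor G z' by group,
      conjZ_spec G hinj (word_mem G l), ← map_inv, ← map_mul, ← map_mul, inv_mul_cancel_comm]
  rw [hz, char_word G hinj l fun j hj => hL j (hl j hj)]

theorem wordSet_mul {a b : ↥(D.group F)} (ha : a ∈ wordSet G χ L) (hb : b ∈ wordSet G χ L) :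
    a * b ∈ wordSet G χ L := by
  obtain ⟨l, hl, z, hz, rfl⟩ := ha
  obtain ⟨l', hl', z', hz', rfl⟩ := hb
  refine ⟨l ++ l', fun j hj => (List.mem_append.1 hj).elim (hl j) (hl' j),
    conjZ G hinj (word_mem G l') z * z', ?_, ?_⟩
  · rw [map_mul, char_word G hinj l' fun j hj => hL j (hl' j hj), hz, hz', mul_one]
  · rw [map_mul, ← conjZ_spec G hinj (word_mem G l'), word_append]
    group

theorem wordSet_word {l : List (Fin D.rank)} (hl : ∀ j ∈ l, j ∈ L) : word G (F := F) l ∈ wordSet G χ L :=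
  ⟨l, hl, 1, map_one χ, by rw [map_one, mul_one]⟩

theorem wordSet_tor {z : Fin D.rank → Fˣ} (hz : χ z = 1) : tor G z ∈ wordSet G χ L :=
  ⟨[], by simp, z, hz, by rw [word_nil, one_mul]⟩

theorem wordSet_ns {j : Fin D.rank} (hj : j ∈ L) : ns G (F := F) j ∈ wordSet G χ L := by
  have := wordSet_word G hinj hL (l := [j]) (by simpa using hj)
  simpa [word] using this

theorem wordSet_inv {a : ↥(D.group F)} (ha : a ∈ wordSet G χ L) : a⁻¹ ∈ wordSet G χ L := by
  obtain ⟨l, hl, z, hz, rfl⟩ := ha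
  rw [mul_inv_rev, ← map_inv]
  refine wordSet_mul G hinj hL (wordSet_tor G hinj hL (by rw [map_inv, hz, inv_one])) ?_
  clear hz z
  induction l with
  | nil => rw [word_nil, inv_one, ← word_nil G]; exact wordSet_word G hinj hL (by simp)
  | cons j l ih =>
    rw [word_cons, mul_inv_rev]
    refine wordSet_mul G hinj hL (ih fun a ha => hl a (List.mem_cons_of_mem _ ha)) ?_
    have hjL := hl j List.mem_cons_self
    rw [show (ns G (F := F) j)⁻¹ = ns G j * (ns G j * ns G j)⁻¹ by group, ns_mul_ns, ← map_inv]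
    exact wordSet_mul G hinj hL (wordSet_ns G hinj hL hjL)
      (wordSet_tor G hinj hL (by rw [map_inv, hL j hjL, inv_one]))

/-- Exchange, keeping track of the torus element. -/
theorem word_exchange : ∀ (l : List (Fin D.rank)), (∀ j ∈ l, j ∈ L) → ∀ i : Fin D.rank,
    D.IsNegRoot (pm G (word G (F := F) l) (G.simpleF i)) → ∃ l', l'.length < l.length ∧ (∀ j ∈ l', j ∈ L) ∧
      ∃ z, χ z = 1 ∧ word G l * ns G i = word G (F := F) l' * tor G z
  | [], _, i, h => by
    rw [word_nil, pm_one] at h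
    exact absurd h (G.not_isNegRoot (G.isPosRoot_simple i.2))
  | j :: l, hl, i, h => by
    have hl' : ∀ a ∈ l, a ∈ L := fun a ha => hl a (List.mem_cons_of_mem _ ha)
    have hjL := hl j List.mem_cons_self
    by_cases hneg : D.IsNegRoot (pm G (word G (F := F) l) (G.simpleF i))
    · obtain ⟨l', hlen, hmem, z, hz, e⟩ := word_exchange l hl' i hneg
      refine ⟨j :: l', by simpa using hlen, fun a ha => (List.mem_cons.1 ha).elim (· ▸ hjL) (hmem a), z, hz, ?_⟩
      rw [word_cons, word_cons, mul_assoc, e, mul_assoc]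
    · set q := pm G (word G (F := F) l) (G.simpleF i) with hq
      have hqpos := (G.isPosRoot_iff_not_neg q.2).2 hneg
      have hjq : q = G.simpleF j := by
        by_contra hne
        rw [word_cons, pm_mul G (ns_mem G j) (word_mem G l), Equiv.Perm.mul_apply, ← hq, pm_ns, G.sPerm_apply] at h
        exact G.not_isNegRoot (G.isPosRoot_reflect j.2 hqpos fun e => hne (Fin.ext e)) h
      obtain ⟨b, hb⟩ := G.monRel_conj_ng
        (G.monRel_perm (show (word G (F := F) l : GL D.Idx F) ∈ D.monomialSubgroup F from word_mem G l))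
        (G.simpleF i)
      have hb1 : word G (F := F) l * ns G i * (word G l)⁻¹ = tor G (Pi.mulSingle j b) * ns G j := by
        apply Subtype.ext
        show (word G (F := F) l : GL D.Idx F) * G.ng (D.simple i) 1 * (word G (F := F) l : GL D.Idx F)⁻¹ =
          G.torus (Pi.mulSingle j b) * G.ng (D.simple j) 1
        rw [G.torus_mulSingle, ← G.ng_eq_hg_mul]
        refine (hb 1).trans ?_
        rw [show G.perm (word G (F := F) l : GL D.Idx F) (G.simpleF i) = G.simpleF j from hjq, mul_one]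
        rfl
      set z : Fin D.rank → Fˣ := Pi.mulSingle j ((-1 : Fˣ)⁻¹ * b⁻¹)
      refine ⟨l, by simp, hl', conjZ G hinj (word_mem G l) z, ?_, ?_⟩
      · rw [char_word G hinj l fun a ha => hL a (hl' a ha), hL j hjL]
      · have hsw : ns G j * tor G (Pi.mulSingle j b) * ns G (F := F) j =
            tor G (Pi.mulSingle j ((-1 : Fˣ)⁻¹ * b⁻¹)) := by
          rw [show ns G j * tor G (Pi.mulSingle j b) * ns G (F := F) j =
            ns G j * ns G j * ((ns G j)⁻¹ * tor G (Pi.mulSingle j b) * ns G j) by group, tor_conj_ns_single,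
            ns_mul_ns, ← map_mul, ← Pi.mulSingle_mul]
        rw [← conjZ_spec G hinj (word_mem G l), mul_assoc, mul_inv_cancel_left, ← hsw, word_cons,
          mul_assoc (ns G (F := F) j), show word G l * ns G (F := F) i =
            tor G (Pi.mulSingle j b) * ns G j * word G l by rw [← hb1]; group]
        group

/-- The words in `L` that are torus elements are killed by `χ`. -/
theorem wordSet_pm_one {g : ↥(D.group F)} (hg : g ∈ wordSet G χ L) (h : pm G g = 1) :
    ∃ z, χ z = 1 ∧ g = tor G z := by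
  obtain ⟨l, hl, z, hz, rfl⟩ := hg
  induction hn : l.length using Nat.strong_induction_on generalizing l z with
  | _ m ih =>
    rcases l.eq_nil_or_concat with rfl | ⟨l', i, rfl⟩
    · exact ⟨z, hz, by rw [word_nil, one_mul]⟩
    rw [List.concat_eq_append] at *
    have hl' : ∀ a ∈ l', a ∈ L := fun a ha => hl a (List.mem_append_left _ ha)
    have hsingle : word G (F := F) [i] = ns G i := by simp [word]
    rw [pm_mul G (word_mem G _) (tor_mem G z), pm_tor, mul_one, word_append, hsingle,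
      pm_mul G (word_mem G l') (ns_mem G i), pm_ns] at h
    have hneg : D.IsNegRoot (pm G (word G (F := F) l') (G.simpleF i)) := by
      have e := Equiv.congr_fun h (G.negF (G.simpleF i))
      rw [Equiv.Perm.mul_apply, G.sPerm_negF, G.sPerm_simple, G.negF_negF, Equiv.Perm.one_apply] at e
      rw [e]
      exact G.isNegRoot_neg (G.isPosRoot_simple i.2)
    obtain ⟨l'', hlen, hmem, z', hz', e⟩ := word_exchange G hinj hL l' hl' i hneg
    have e' : word G (l' ++ [i]) * tor G z = word G (F := F) l'' * tor G (z' * z) := by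
      rw [word_append, hsingle, e, map_mul, mul_assoc]
    rw [e']
    refine ih l''.length (by rw [← hn, List.length_append]; simp; omega) l'' hmem (z' * z)
      (by rw [map_mul, hz', hz, mul_one]) ?_ rfl
    have e2 := congrArg (pm G) e
    rw [pm_mul G (word_mem G l') (ns_mem G i), pm_ns, h, pm_mul G (word_mem G l'') (tor_mem G z'), pm_tor,
      mul_one] at e2
    rw [pm_mul G (word_mem G l'') (tor_mem G _), pm_tor, mul_one]
    exact e2.symm

end

/-! ### The weight vectors -/

theorem upper_inf_tor {u : ↥(D.group F)} (hu : u ∈ upper D F) {z : Fin D.rank → Fˣ} (h : u = tor G z) :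
    u = 1 := by
  obtain ⟨n, hn, hopp⟩ := exists_opp G (F := F)
  have h1 : n * u * n⁻¹ ∈ lower D F := (conj_opp G hn hopp u).2 hu
  obtain ⟨z', hz'⟩ := exists_tor G (mul_mem (mul_mem hn (h ▸ tor_mem G z)) (inv_mem hn)) (by
    rw [pm_mul G (mul_mem hn (h ▸ tor_mem G z)) (inv_mem hn), pm_mul G hn (h ▸ tor_mem G z), h, pm_tor,
      pm_inv G hn, mul_one, mul_inv_cancel])
  have h2 : ((n * u * n⁻¹ : ↥(D.group F)) : GL D.Idx F) ∈ D.borelSubgroup F :=
    Subgroup.mem_sup_right (G.mem_diagonal.2 ⟨z', congrArg Subtype.val hz'⟩)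
  have h3 : n * u * n⁻¹ = 1 :=
    Subtype.ext ((Subgroup.eq_bot_iff_forall _).1 (G.borel_inf_neg (F := F)) _ ⟨h2, h1⟩)
  exact conj_eq_one_iff.1 h3

include hinj in
/-- Every admissible pair is the weight of a vector in the functions on the group. -/
theorem exists_weight_vector {p : ℕ} [Fact p.Prime] [CharP F p] [CharP k p] (χ : (Fin D.rank → Fˣ) →* kˣ)
    (K : Finset (Fin D.rank)) (hadm : Adm χ K) :
    ∃ m : ↥(D.group F) → k, HasWeight G (Modular.permRep k ↥(D.group F) ↥(D.group F)) m χ K := by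
  classical
  set ρ := Modular.permRep k ↥(D.group F) ↥(D.group F) with hρ
  have hρa : ∀ g (f : ↥(D.group F) → k) x, ρ g f x = f (g⁻¹ * x) := fun g f x => rfl
  set J0 := Finset.univ.filter fun i : Fin D.rank => ∀ c : Fˣ, χ (Pi.mulSingle i c) = 1 with hJ0
  set L := J0 \ K with hLdef
  have hL : ∀ j ∈ L, ∀ c, χ (Pi.mulSingle j c) = 1 := fun j hj =>
    (Finset.mem_filter.1 (Finset.mem_sdiff.1 hj).1).2
  obtain ⟨n₀, hn₀, hopp⟩ := exists_opp G (F := F)
  set χ' := χ.comp (conjZ G hinj (inv_mem hn₀)) with hχ'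
  have hχ0 : ∀ z, χ' (conjZ G hinj hn₀ z) = χ z := fun z => by
    rw [hχ', MonoidHom.comp_apply]
    congr 1
    refine conjZ_eq G hinj _ ?_
    rw [← conjZ_spec G hinj hn₀]
    group
  -- the function carried by `U H`
  let f₀ : ↥(D.group F) → k := fun x =>
    if h : ∃ z, ∃ u ∈ upper D F, x = u * tor G z then ((χ' h.choose)⁻¹ : kˣ) else 0
  have hf₀ : ∀ u ∈ upper D F, ∀ z, f₀ (u * tor G z) = ((χ' z)⁻¹ : kˣ) := by
    intro u hu z
    have h : ∃ z', ∃ u' ∈ upper D F, u * tor G z = u' * tor G z' := ⟨z, u, hu, rfl⟩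
    simp only [f₀, dif_pos h]
    obtain ⟨u', hu', e⟩ := h.choose_spec
    have e1 : u'⁻¹ * u = tor G (h.choose * z⁻¹) :=
      calc u'⁻¹ * u = u'⁻¹ * (u * tor G z) * (tor G z)⁻¹ := by group
        _ = u'⁻¹ * (u' * tor G h.choose) * (tor G z)⁻¹ := congrArg (fun x => u'⁻¹ * x * (tor G z)⁻¹) e
        _ = tor G (h.choose * z⁻¹) := by rw [map_mul, map_inv]; group
    have e2 := upper_inf_tor G (mul_mem (inv_mem hu') hu) e1
    rw [e1] at e2
    have e3 : h.choose * z⁻¹ = 1 := hinj (by rw [map_one]; exact congrArg Subtype.val e2)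
    rw [mul_inv_eq_one.1 e3]
  have hf0 : ∀ x, f₀ x ≠ 0 → ∃ z, ∃ u ∈ upper D F, x = u * tor G z := fun x hx => by
    by_contra h
    exact hx (by simp only [f₀, dif_neg h])
  have hfix : IsFix ρ f₀ := by
    intro u hu
    funext x
    rw [hρa]
    by_cases h : ∃ z, ∃ v ∈ upper D F, x = v * tor G z
    · obtain ⟨z, v, hv, rfl⟩ := h
      rw [← mul_assoc, hf₀ _ (mul_mem (inv_mem hu) hv), hf₀ _ hv]
    · have h' : ¬∃ z, ∃ v ∈ upper D F, u⁻¹ * x = v * tor G z := fun ⟨z, v, hv, e⟩ =>
        h ⟨z, u * v, mul_mem hu hv, by rw [mul_assoc, ← e, mul_inv_cancel_left]⟩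
      simp only [f₀, dif_neg h, dif_neg h']
  have hchar : HasChar G ρ f₀ χ' := by
    intro z
    funext x
    rw [hρa, Pi.smul_apply, smul_eq_mul]
    by_cases h : ∃ z', ∃ v ∈ upper D F, x = v * tor G z'
    · obtain ⟨z', v, hv, rfl⟩ := h
      have hv' := tor_conj_upper G z⁻¹ hv
      rw [map_inv, inv_inv] at hv'
      rw [show (tor G z)⁻¹ * (v * tor G z') = (tor G z)⁻¹ * v * tor G z * tor G (z⁻¹ * z') by
        rw [map_mul, map_inv]; group, hf₀ _ hv', hf₀ _ hv]
      simp [mul_comm]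
    · have h' : ¬∃ z', ∃ v ∈ upper D F, (tor G z)⁻¹ * x = v * tor G z' := fun ⟨z', v, hv, e⟩ =>
        h ⟨z * z', _, tor_conj_upper G z hv, by rw [map_mul, ← mul_inv_cancel_left (tor G z) x, e]; group⟩
      simp only [f₀, dif_neg h, dif_neg h', mul_zero]
  let T : ↥(D.group F) → (↥(D.group F) → k) := fun g => opT G ρ (g * n₀) f₀
  have hTeq : ∀ a ∈ wordSet G χ L, ∀ b ∈ wordSet G χ L, pm G a = pm G b → T a = T b := by
    intro a ha b hb hab
    have hma := wordSet_mem G ha
    obtain ⟨z, hz, e⟩ := wordSet_pm_one G hinj hL (wordSet_mul G hinj hL (wordSet_inv G hinj hL ha) hb) (by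
      rw [pm_mul G (inv_mem hma) (wordSet_mem G hb), pm_inv G hma, hab, inv_mul_cancel])
    have e' : b * n₀ = a * n₀ * tor G (conjZ G hinj hn₀ z) := by
      rw [← conjZ_spec G hinj hn₀, ← e]; group
    show opT G ρ (a * n₀) f₀ = opT G ρ (b * n₀) f₀
    rw [e', opT_mul_tor G ρ (mul_mem hma hn₀) _ hchar, hχ0, hz, Units.val_one, one_smul]
  set S : Finset (Equiv.Perm (Fin D.nroots)) := (Set.toFinite (pm G '' wordSet G χ L)).toFinset with hS
  have hSmem : ∀ σ, σ ∈ S ↔ ∃ a ∈ wordSet G χ L, pm G a = σ := fun σ => Set.Finite.mem_toFinset _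
  choose! g hgE hgσ using fun σ (h : σ ∈ S) => (hSmem σ).1 h
  set m := ∑ σ ∈ S, T (g σ) with hm
  have hmn : ∀ σ ∈ S, g σ * n₀ ∈ mono D F := fun σ hσ => mul_mem (wordSet_mem G (hgE σ hσ)) hn₀
  -- the descents of `a n₀`
  have hdesc : ∀ a ∈ wordSet G χ L, ∀ i,
      (G.simpleF i : ℕ) ∈ lSet G (a * n₀) ↔ D.IsPosRoot ((pm G a)⁻¹ (G.simpleF i)) := by
    intro a ha i
    have hma := wordSet_mem G ha
    rw [mem_lSet G (mul_mem hma hn₀), pm_mul G hma hn₀, mul_inv_rev, Equiv.Perm.mul_apply]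
    set s := (pm G a)⁻¹ (G.simpleF i)
    have hinv : (pm G n₀)⁻¹ s = (pm G n₀⁻¹) s := by rw [pm_inv G hn₀]
    constructor
    · rintro ⟨-, hneg⟩
      refine (G.isPosRoot_or_isNegRoot (Fin.isLt s)).resolve_right fun hs => ?_
      have h1 : D.IsPosRoot ((G.negF ((pm G n₀)⁻¹ s) : Fin D.nroots) : ℕ) := G.isPosRoot_neg hneg
      have h2 := hopp _ h1
      rw [show pm G n₀ (G.negF ((pm G n₀)⁻¹ s)) = G.negF (pm G n₀ ((pm G n₀)⁻¹ s)) from G.perm_negF hn₀ _,
        show pm G n₀ ((pm G n₀)⁻¹ s) = s from (pm G n₀).apply_symm_apply s] at h2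
      exact G.not_isNegRoot (G.isNegRoot_negF.1 h2) hs
    · intro hs
      refine ⟨G.isPosRoot_simple i.2, (G.isPosRoot_or_isNegRoot (Fin.isLt _)).resolve_left fun h => ?_⟩
      have h2 := hopp _ h
      rw [show pm G n₀ ((pm G n₀)⁻¹ s) = s from (pm G n₀).apply_symm_apply s] at h2
      exact G.not_isNegRoot hs h2
  have hdown : ∀ a ∈ wordSet G χ L, ∀ i, (G.simpleF i : ℕ) ∈ lSet G (a * n₀) →
      opT G ρ (ns G i) (T a) = if i ∈ J0 then -T a else 0 := by
    intro a ha i hi
    have hma := wordSet_mem G ha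
    refine (opT_down G ρ hinj (p := p) (mul_mem hma hn₀) i hi hfix hchar).trans ?_
    have hc : ∀ z, χ' (conjZ G hinj (mul_mem hma hn₀) z) = χ z := fun z => by
      rw [conjZ_mul G hinj hma hn₀, hχ0, char_conj G hinj hL ha]
    simp only [hc, hJ0, Finset.mem_filter, Finset.mem_univ, true_and]
    rfl
  have hmfix : IsFix ρ m := fun u hu => by
    rw [hm, map_sum]; exact Finset.sum_congr rfl fun σ hσ => isFix_opT G ρ (hmn σ hσ) hfix u hu
  have hmchar : HasChar G ρ m χ := by
    intro z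
    rw [hm, map_sum, Finset.smul_sum]
    refine Finset.sum_congr rfl fun σ hσ => ?_
    rw [hasChar_moved G ρ hinj (hmn σ hσ) hchar z, MonoidHom.comp_apply,
      conjZ_mul G hinj (wordSet_mem G (hgE σ hσ)) hn₀, hχ0, char_conj G hinj hL (hgE σ hσ)]
  have hne : m n₀ = 1 := by
    have h1E : (1 : ↥(D.group F)) ∈ wordSet G χ L :=
      word_nil G (F := F) ▸ wordSet_word G hinj hL (l := []) (by simp)
    have h1S : pm G (1 : ↥(D.group F)) ∈ S := (hSmem _).2 ⟨1, h1E, rfl⟩
    have hzero : ∀ σ ∈ S, σ ≠ pm G (1 : ↥(D.group F)) → T (g σ) n₀ = 0 := by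
      intro σ hσ hne
      show opT G ρ (g σ * n₀) f₀ n₀ = 0
      rw [opT, Finset.sum_apply]
      refine Finset.sum_eq_zero fun y hy => ?_
      rw [hρa]
      by_contra hf
      obtain ⟨z, u, hu, e⟩ := hf0 _ hf
      have e1 : y⁻¹ * n₀ = g σ * n₀ * (u * tor G z) := by rw [← e]; group
      have hb : ((u * tor G z : ↥(D.group F)) : GL D.Idx F) ∈ D.borelSubgroup F :=
        mul_mem (Subgroup.mem_sup_left hu) (Subgroup.mem_sup_right (G.mem_diagonal.2 ⟨z, rfl⟩))
      have hp := G.perm_eq_of_double_coset (b := ((y⁻¹ : ↥(D.group F)) : GL D.Idx F))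
        (Subgroup.mem_sup_left (inv_mem (pS_le G _ ((mem_tSet G).1 hy)))) hb hn₀ (hmn σ hσ)
        (congrArg Subtype.val e1)
      change pm G n₀ = pm G (g σ * n₀) at hp
      rw [pm_mul G (wordSet_mem G (hgE σ hσ)) hn₀, hgσ σ hσ] at hp
      exact hne ((right_eq_mul.1 hp).trans (pm_one G).symm)
    rw [hm, Finset.sum_apply, Finset.sum_eq_single_of_mem _ h1S hzero,
      hTeq _ (hgE _ h1S) 1 h1E (hgσ _ h1S)]
    show opT G ρ (1 * n₀) f₀ n₀ = 1
    rw [one_mul, opT, Finset.sum_apply, Finset.sum_eq_single_of_mem 1 ((mem_tSet G).2 (one_mem _))]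
    · rw [hρa, one_mul, inv_mul_cancel]
      have := hf₀ 1 (one_mem _) 1
      rw [map_one, mul_one, map_one, inv_one, Units.val_one] at this
      exact this
    · intro y hy hy1
      rw [hρa]
      by_contra hf
      obtain ⟨z, u, hu, e⟩ := hf0 _ hf
      have h1 : n₀⁻¹ * y⁻¹ * n₀ ∈ lower D F := conj_lower G hn₀ (inv_mem ((mem_tSet G).1 hy))
      have h2 : ((u * tor G z : ↥(D.group F)) : GL D.Idx F) ∈ D.borelSubgroup F :=
        mul_mem (Subgroup.mem_sup_left hu) (Subgroup.mem_sup_right (G.mem_diagonal.2 ⟨z, rfl⟩))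
      rw [← e, mul_inv_rev] at h2
      have h3 : n₀⁻¹ * y⁻¹ * n₀ = 1 :=
        Subtype.ext ((Subgroup.eq_bot_iff_forall _).1 (G.borel_inf_neg (F := F)) _ ⟨h2, h1⟩)
      exact hy1 (inv_eq_one.1 (conj_eq_one_iff.1 (show n₀⁻¹ * y⁻¹ * n₀⁻¹⁻¹ = 1 by rwa [inv_inv])))
  refine ⟨m, fun h => one_ne_zero (hne.symm.trans (congrFun h n₀)), hmfix, hmchar, fun i => ?_⟩
  rw [hm, opT_sum]
  by_cases hiL : i ∈ L
  · -- the terms cancel in pairs
    obtain ⟨hiJ, hiK⟩ := Finset.mem_sdiff.1 hiL
    rw [if_neg hiK]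
    let P : Equiv.Perm (Fin D.nroots) → Prop := fun σ => D.IsPosRoot (σ⁻¹ (G.simpleF i))
    have hsS : ∀ σ ∈ S, G.sPerm i * σ ∈ S := fun σ hσ => (hSmem _).2
      ⟨ns G i * g σ, wordSet_mul G hinj hL (wordSet_ns G hinj hL hiL) (hgE σ hσ),
        by rw [pm_mul G (ns_mem G i) (wordSet_mem G (hgE σ hσ)), pm_ns, hgσ σ hσ]⟩
    have hP : ∀ σ ∈ S, ¬ P σ ↔ P (G.sPerm i * σ) := by
      intro σ hσ
      have hn := wordSet_mem G (hgE σ hσ)
      have e : (G.sPerm i * σ)⁻¹ (G.simpleF i) = G.negF (σ⁻¹ (G.simpleF i)) := by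
        rw [mul_inv_rev, Equiv.Perm.mul_apply, show (G.sPerm i)⁻¹ = G.sPerm i from
          inv_eq_of_mul_eq_one_left (G.sPerm_mul_self i), G.sPerm_simple, ← hgσ σ hσ, ← pm_inv G hn]
        exact G.perm_negF (inv_mem hn) _
      show ¬ D.IsPosRoot _ ↔ D.IsPosRoot _
      rw [e]
      constructor
      · exact fun h => G.isPosRoot_neg ((G.isPosRoot_or_isNegRoot (Fin.isLt _)).resolve_left h)
      · intro h h'
        exact G.not_isNegRoot h (G.isNegRoot_neg h')
    have hup : ∀ σ ∈ S.filter fun σ => ¬ P σ, opT G ρ (ns G i) (T (g σ)) = T (g (G.sPerm i * σ)) := by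
      intro σ hσ
      obtain ⟨hσS, hσP⟩ := Finset.mem_filter.1 hσ
      have hi : (G.simpleF i : ℕ) ∉ lSet G (g σ * n₀) := fun h => hσP (by
        have := (hdesc _ (hgE σ hσS) i).1 h
        rwa [hgσ σ hσS] at this)
      show opT G ρ (ns G i) (opT G ρ (g σ * n₀) f₀) = _
      rw [opT_comp G ρ (ns_mem G i) (hmn σ hσS) (simple_notMem_card G (hmn σ hσS) i hi).1, ← mul_assoc]
      exact hTeq _ (wordSet_mul G hinj hL (wordSet_ns G hinj hL hiL) (hgE σ hσS)) _
        (hgE _ (hsS σ hσS))
        (by rw [hgσ _ (hsS σ hσS), pm_mul G (ns_mem G i) (wordSet_mem G (hgE σ hσS)), pm_ns, hgσ σ hσS])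
    have hdn : ∀ σ ∈ S.filter P, opT G ρ (ns G i) (T (g σ)) = -T (g σ) := by
      intro σ hσ
      obtain ⟨hσS, hσP⟩ := Finset.mem_filter.1 hσ
      rw [hdown _ (hgE σ hσS) i ((hdesc _ (hgE σ hσS) i).2 (by rw [hgσ σ hσS]; exact hσP)), if_pos hiJ]
    rw [← Finset.sum_filter_add_sum_filter_not S P, Finset.sum_congr rfl hup, Finset.sum_congr rfl hdn,
      Finset.sum_neg_distrib, neg_add_eq_zero]
    refine Finset.sum_nbij' (fun σ => G.sPerm i * σ) (fun σ => G.sPerm i * σ) ?_ ?_ ?_ ?_ ?_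
    · intro σ hσ
      obtain ⟨hσS, hσP⟩ := Finset.mem_filter.1 hσ
      exact Finset.mem_filter.2 ⟨hsS σ hσS, fun h => (hP _ (hsS σ hσS)).2 (by
        rwa [← mul_assoc, G.sPerm_mul_self, one_mul]) h⟩
    · intro σ hσ
      obtain ⟨hσS, hσP⟩ := Finset.mem_filter.1 hσ
      exact Finset.mem_filter.2 ⟨hsS σ hσS, (hP _ hσS).1 hσP⟩
    · intro σ _; rw [← mul_assoc, G.sPerm_mul_self, one_mul]
    · intro σ _; rw [← mul_assoc, G.sPerm_mul_self, one_mul]
    · intro σ _; rw [← mul_assoc, G.sPerm_mul_self, one_mul]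
  · -- the coordinate at `i` is kept, so all terms are descents
    have hall : ∀ σ ∈ S, opT G ρ (ns G i) (T (g σ)) = if i ∈ K then -T (g σ) else 0 := by
      intro σ hσ
      have hpos : D.IsPosRoot ((pm G (g σ))⁻¹ (G.simpleF i)) := by
        obtain ⟨l, hl, z, -, e⟩ := hgE σ hσ
        refine (G.isPosRoot_or_isNegRoot (Fin.isLt _)).resolve_right fun hneg => ?_
        have h1 := rc_word G (F := F) i l (fun h => hiL (hl i h)) ((pm G (g σ))⁻¹ (G.simpleF i))
        rw [show pm G (word G (F := F) l) = pm G (g σ) by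
          rw [e, pm_mul G (word_mem G l) (tor_mem G z), pm_tor, mul_one],
          show pm G (g σ) ((pm G (g σ))⁻¹ (G.simpleF i)) = G.simpleF i from (pm G (g σ)).apply_symm_apply _,
          show G.rc ((G.simpleF i : Fin D.nroots) : ℕ) = _ from G.rc_simple i.2] at h1
        have h2 := G.rc_nonneg (G.isPosRoot_neg hneg) i
        rw [G.rc_neg (Fin.isLt _), Pi.neg_apply, ← h1] at h2
        simp at h2
      rw [hdown _ (hgE σ hσ) i ((hdesc _ (hgE σ hσ) i).2 hpos)]
      have hiff : i ∈ J0 ↔ i ∈ K := ⟨fun h => by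
          by_contra h'; exact hiL (Finset.mem_sdiff.2 ⟨h, h'⟩),
        fun h => Finset.mem_filter.2 ⟨Finset.mem_univ _, hadm i h⟩⟩
      simp only [hiff]
    rw [Finset.sum_congr rfl hall]
    split_ifs
    · rw [Finset.sum_neg_distrib]
    · rw [Finset.sum_const_zero]

/-- A weight vector lies in an irreducible subquotient. -/
theorem exists_irred_of_weight {X : Type w} [AddCommGroup X] [Module k X] [FiniteDimensional k X]
    (ρ : ↥(D.group F) →* Module.End k X) {m : X} {χ : (Fin D.rank → Fˣ) →* kˣ} {K : Finset (Fin D.rank)}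
    (hw : HasWeight G ρ m χ K) :
    ∃ (V : Type w) (_ : AddCommGroup V) (_ : Module k V) (_ : FiniteDimensional k V)
      (σ : ↥(D.group F) →* Module.End k V) (v : V), IsIrred σ ∧ HasWeight G σ v χ K := by
  obtain ⟨hm, hfix, hchar, hT⟩ := hw
  let P : Submodule k X → Prop := fun Q => m ∉ Q ∧ ∀ g, ∀ x ∈ Q, ρ g x ∈ Q
  have hP0 : P ⊥ := ⟨by simpa using hm, fun g x hx => by
    rw [Submodule.mem_bot] at hx ⊢; rw [hx, map_zero]⟩
  obtain ⟨Q, ⟨hmQ, hQ⟩, hmax⟩ : ∃ Q, Maximal P Q := exists_maximal_of_wellFoundedGT P ⟨⊥, hP0⟩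
  let ρQ : ↥(D.group F) →* Module.End k (X ⧸ Q) :=
    { toFun := fun g => Q.mapQ Q (ρ g) (hQ g)
      map_one' := Submodule.linearMap_qext _ (LinearMap.ext fun x => by simp)
      map_mul' := fun a b => Submodule.linearMap_qext _ (LinearMap.ext fun x => by simp) }
  have hm' : Q.mkQ m ≠ 0 := fun h => hmQ ((Submodule.Quotient.mk_eq_zero Q).1 h)
  let W := Submodule.span k (Set.range fun g => ρQ g (Q.mkQ m))
  have hW : ∀ g, ∀ x ∈ W, ρQ g x ∈ W := by
    intro g x hx
    induction hx using Submodule.span_induction with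
    | mem x hx => obtain ⟨g', rfl⟩ := hx; exact Submodule.subset_span ⟨g * g', by simp⟩
    | zero => rw [map_zero]; exact W.zero_mem
    | add a b _ _ ha hb => rw [map_add]; exact W.add_mem ha hb
    | smul c a _ ha => rw [map_smul]; exact W.smul_mem c ha
  let σ : ↥(D.group F) →* Module.End k W :=
    { toFun := fun g => (ρQ g).restrict (hW g)
      map_one' := LinearMap.ext fun x => Subtype.ext (by simp)
      map_mul' := fun a b => LinearMap.ext fun x => Subtype.ext (by simp) }
  have hmW : Q.mkQ m ∈ W := Submodule.subset_span ⟨1, by simp⟩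
  let v : W := ⟨_, hmW⟩
  have hv : v ≠ 0 := fun h => hm' (congrArg Subtype.val h)
  have hq : ∀ g x, Q.mkQ (ρ g x) = ρQ g (Q.mkQ x) := fun g x => rfl
  refine ⟨W, inferInstance, inferInstance, inferInstance, σ, v, ⟨⟨v, 0, hv⟩, fun U hU => ?_⟩, hv, ?_, ?_, ?_⟩
  · by_cases hb : U = ⊥
    · exact Or.inl hb
    refine Or.inr (eq_top_iff.2 fun x _ => ?_)
    -- the preimage of `U` in `X` is invariant and strictly above `Q`
    set U' := (U.map W.subtype).comap Q.mkQ with hU'
    have hU'inv : ∀ g, ∀ y ∈ U', ρ g y ∈ U' := by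
      rintro g y ⟨w, hw, e⟩
      exact ⟨σ g w, hU g w hw, by rw [hq, ← e]; rfl⟩
    have hmU : m ∈ U' := by
      by_contra hmU
      have hle : Q ≤ U' := fun y hy => by
        show Q.mkQ y ∈ U.map W.subtype
        rw [show Q.mkQ y = 0 from (Submodule.Quotient.mk_eq_zero Q).2 hy]; exact zero_mem _
      refine hb ((Submodule.eq_bot_iff _).2 fun w hw => Subtype.ext ?_)
      obtain ⟨y, hy⟩ := Q.mkQ_surjective (w : X ⧸ Q)
      rw [← hy]
      exact (Submodule.Quotient.mk_eq_zero Q).2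
        (hmax ⟨hmU, hU'inv⟩ hle (show y ∈ U' from ⟨w, hw, hy.symm⟩))
    obtain ⟨x, hx⟩ := x
    have : x ∈ U.map W.subtype := by
      refine (Submodule.span_le (p := U.map W.subtype)).2 ?_ hx
      rintro _ ⟨g, rfl⟩
      show ρQ g (Q.mkQ m) ∈ U.map W.subtype
      rw [← hq]; exact hU'inv g m hmU
    obtain ⟨y, hy, e⟩ := this
    exact (Subtype.ext e : y = ⟨x, hx⟩) ▸ hy
  · exact fun u hu => Subtype.ext (by show ρQ u (Q.mkQ m) = Q.mkQ m; rw [← hq, hfix u hu])
  · exact fun z => Subtype.ext (by show ρQ (tor G z) (Q.mkQ m) = _; rw [← hq, hchar z, map_smul]; rfl)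
  · intro i
    apply Subtype.ext
    have e1 := opT_map G σ ρQ W.subtype (fun g x => rfl) (ns G i) v
    have e2 := opT_map G ρ ρQ Q.mkQ hq (ns G i) m
    rw [Submodule.subtype_apply] at e1
    rw [e1, Submodule.subtype_apply, show (v : X ⧸ Q) = Q.mkQ m from rfl, ← e2, hT i]
    split_ifs <;> rfl

omit [Fintype F] in
/-- The number of admissible pairs. -/
theorem card_adm [Fintype F] [IsAlgClosed k] {p : ℕ} [Fact p.Prime] [CharP F p] [CharP k p] :
    Nat.card {x : ((Fin D.rank → Fˣ) →* kˣ) × Finset (Fin D.rank) // Adm x.1 x.2} =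
      Fintype.card F ^ D.rank := by
  classical
  let E : {x : ((Fin D.rank → Fˣ) →* kˣ) × Finset (Fin D.rank) // Adm x.1 x.2} ≃
      (Fin D.rank → Option (Fˣ →* kˣ)) :=
    { toFun := fun x i => if i ∈ x.1.2 then none else some (x.1.1.comp (MonoidHom.mulSingle (fun _ : Fin D.rank => Fˣ) i))
      invFun := fun a => ⟨(∏ i, ((a i).getD 1).comp (Pi.evalMonoidHom (fun _ => Fˣ) i),
          Finset.univ.filter fun i => a i = none), fun i hi c => by
        rw [MonoidHom.finsetProd_apply, Finset.prod_eq_single i]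
        · simp [(Finset.mem_filter.1 hi).2]
        · intro j _ hj; simp [Pi.mulSingle_eq_of_ne hj]
        · simp⟩
      left_inv := fun ⟨⟨χ, K⟩, h⟩ => by
        refine Subtype.ext (Prod.ext (MonoidHom.pi_ext fun i c => ?_) ?_)
        · rw [MonoidHom.finsetProd_apply, Finset.prod_eq_single i]
          · by_cases hi : i ∈ K
            · simp [hi, h i hi c]
            · simp [hi]
          · intro j _ hj; simp [Pi.mulSingle_eq_of_ne hj]
          · simp
        · ext i; by_cases hi : i ∈ K <;> simp [hi]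
      right_inv := fun a => funext fun i => by
        by_cases hi : a i = none
        · simp [hi]
        · obtain ⟨b, hb⟩ := Option.ne_none_iff_exists'.1 hi
          show (if i ∈ Finset.univ.filter (fun i => a i = none) then none else some _) = a i
          rw [if_neg (by simp [hi]), hb]
          congr 1
          refine MonoidHom.ext fun c => ?_
          rw [MonoidHom.comp_apply, MonoidHom.finsetProd_apply, Finset.prod_eq_single i]
          · simp [hb]
          · intro j _ hj; simp [Pi.mulSingle_eq_of_ne hj]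
          · simp }
  rw [Nat.card_congr E, Nat.card_fun, Nat.card_eq_fintype_card (α := Fin D.rank), Fintype.card_fin]
  congr 1
  haveI : NeZero (Monoid.exponent Fˣ : k) := ⟨fun h => by
    rw [IsCyclic.exponent_eq_card, Nat.card_eq_fintype_card, Fintype.card_units, Nat.cast_sub Fintype.card_pos,
      Nat.cast_one] at h
    obtain ⟨n, -, hn⟩ := FiniteField.card F p
    rw [hn, Nat.cast_pow, CharP.cast_eq_zero, zero_pow n.ne_zero, zero_sub, neg_eq_zero] at h
    exact one_ne_zero h⟩
  haveI : Finite (Fˣ →* kˣ) := Nat.finite_of_card_ne_zero (by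
    rw [CommGroup.card_monoidHom_of_hasEnoughRootsOfUnity Fˣ k]; exact Nat.card_pos.ne')
  rw [Finite.card_option, CommGroup.card_monoidHom_of_hasEnoughRootsOfUnity Fˣ k, Nat.card_eq_fintype_card,
    Fintype.card_units]
  have := Fintype.card_pos (α := F)
  omega

include hinj in
/-- There are `q ^ rank` classes of elements of order prime to the characteristic. -/
theorem card_regClasses_eq [IsAlgClosed k] {p : ℕ} [Fact p.Prime] [CharP F p] [CharP k p] :
    Nat.card (regClasses p ↥(D.group F)) = Fintype.card F ^ D.rank := by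
  classical
  rw [← card_adm G (F := F) (k := k) (p := p)]
  set ι := {x : ((Fin D.rank → Fˣ) →* kˣ) × Finset (Fin D.rank) // Adm x.1 x.2}
  haveI : Finite ι := Nat.finite_of_card_ne_zero (by
    rw [card_adm G (F := F) (k := k) (p := p)]; exact pow_ne_zero _ Fintype.card_ne_zero)
  letI : Fintype ι := Fintype.ofFinite ι
  have h : ∀ x : ι, ∃ (V : Type (max u v)) (_ : AddCommGroup V) (_ : Module k V) (_ : FiniteDimensional k V)
      (σ : ↥(D.group F) →* Module.End k V) (v : V), IsIrred σ ∧ HasWeight G σ v x.1.1 x.1.2 := by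
    intro x
    obtain ⟨m, hm⟩ := exists_weight_vector G (k := k) hinj (p := p) x.1.1 x.1.2 x.2
    exact exists_irred_of_weight G _ hm
  choose V i1 i2 i3 σ v hirr hw using h
  refine le_antisymm ?_ ?_
  · rw [Nat.card_eq_fintype_card (α := ι)]
    refine Modular.card_regClasses_le (fun x g => LinearMap.trace k (V x) (σ x g)) ?_
    intro W _ _ _ ρ hρ
    haveI := hρ.1
    obtain ⟨m, χ, K, hA, hm⟩ := exists_weight G ρ hinj (p := p)
    exact ⟨⟨(χ, K), hA⟩, funext fun g =>
      trace_eq_of_weight G (σ ⟨(χ, K), hA⟩) ρ (hirr _) hρ (hw _) hm (p := p) g⟩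
  · rw [Nat.card_eq_fintype_card (α := ι)]
    refine Cfsg.Agent.H43.D1.card_le_regClasses V σ hirr fun a b hab θ hθ => ?_
    by_contra hne
    refine hab ?_
    have hinjθ : Function.Injective θ := by
      rw [← LinearMap.ker_eq_bot]
      refine ((hirr a).2 (LinearMap.ker θ) fun g x hx => ?_).resolve_right fun ht =>
        hne (LinearMap.ker_eq_top.1 ht)
      rw [LinearMap.mem_ker] at hx ⊢; rw [hθ, hx, map_zero]
    obtain ⟨hva, hfa, hca, hTa⟩ := hw a
    obtain ⟨hvb, hfb, hcb, hTb⟩ := hw b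
    have hv0 : θ (v a) ≠ 0 := fun h => hva (hinjθ (h.trans (map_zero θ).symm))
    obtain ⟨c, hc⟩ := fix_unique G (σ b) hinj (p := p) (hirr b) hvb hfb (v' := θ (v a))
      (fun u hu => by rw [← hθ, hfa u hu])
    have hc0 : c ≠ 0 := fun h => hv0 (by rw [hc, h, zero_smul])
    have hχ : a.1.1 = b.1.1 := char_unique G (σ b) hv0 (fun z => by rw [← hθ, hca z, map_smul])
      fun z => by rw [hc, map_smul, hcb z, smul_smul, smul_smul, mul_comm]
    refine Subtype.ext (Prod.ext hχ (Finset.ext fun i => ?_))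
    have e := opT_map G (σ a) (σ b) θ hθ (ns G i) (v a)
    rw [hTa i, hc, opT_smul, hTb i] at e
    by_cases ha : i ∈ a.1.2 <;> by_cases hb : i ∈ b.1.2
    · exact ⟨fun _ => hb, fun _ => ha⟩
    · rw [if_pos ha, if_neg hb, smul_zero, map_neg, neg_eq_zero] at e
      exact absurd e hv0
    · rw [if_neg ha, if_pos hb, map_zero, smul_neg, ← hc, eq_comm, neg_eq_zero] at e
      exact absurd e hv0
    · exact ⟨fun h => absurd h ha, fun h => absurd h hb⟩

end Cfsg.Agent.H47.Hecke
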