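import Cfsg.Agent.H47.SimpleCount
import Cfsg.Agent.H46.TorusCard
import Cfsg.Agent.H46.TypeG2
import Cfsg.Agent.H46.TypeB2
import Cfsg.Agent.H46.TypeD4
import Cfsg.Agent.H46.TypeF4
import Cfsg.Agent.H46.TypeE6
import Cfsg.Agent.H46.TypeE7
import Cfsg.Agent.H46.TypeE8

/-!
# The semisimple classes of the Chevalley groups whose torus map is injective
-/

set_option autoImplicit false

namespace Cfsg.Agent.H47.Hecke

open Cfsg.Lie Cfsg.Agent.H46

theorem torus_injective {D : ChevalleyDatum} (G : Good D) {F : Type*} [Field F] [Fintype F] (C : SmithCert)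
    (hC : SmithOk D G.tab C) (h : ∀ i : Fin D.rank, (Fintype.card F - 1).gcd (C.s.getD i.val 0) = 1) :
    Function.Injective (G.torus (F := F)) := by
  rw [← MonoidHom.ker_eq_bot_iff]
  refine Subgroup.eq_bot_of_card_eq _ ?_
  rw [G.card_ker_torus C hC]
  exact Finset.prod_eq_one fun i _ => h i

/-- The count, with the classes described by coprimality. -/
theorem card_coprime_classes {D : ChevalleyDatum} (G : Good D) {F : Type*} [Field F] [Fintype F] (p : ℕ)
    [hp : Fact p.Prime] [CharP F p] (C : SmithCert) (hC : SmithOk D G.tab C)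
    (h : ∀ i : Fin D.rank, (Fintype.card F - 1).gcd (C.s.getD i.val 0) = 1) :
    Nat.card {c : ConjClasses ↥(D.group F) //
      ∃ g : ↥(D.group F), ConjClasses.mk g = c ∧ (orderOf g).Coprime p} = Fintype.card F ^ D.rank := by
  rw [← card_regClasses_eq G (k := AlgebraicClosure (ZMod p)) (torus_injective G C hC h) (p := p)]
  refine Nat.card_congr (Equiv.subtypeEquivRight fun c => ?_)
  show _ ↔ ∃ y, _
  exact exists_congr fun g => by rw [Nat.coprime_comm, hp.out.coprime_iff_not_dvd, and_comm]

end Cfsg.Agent.H47.Hecke
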